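import Cfsg.Agent.Lib.Geometric.PauliMinus.LocalLemmas
import Cfsg.Agent.Lib.Geometric.SympType.Big

/-!
An overgroup of the normaliser of a system of minus type in which the centraliser of an involution
has all four-dimensional isometries as projections is everything; the normaliser is proper.
-/

set_option autoImplicit false
set_option linter.unusedSectionVars false

namespace CfsgLib.Geometric.PauliMinus

open Matrix Cfsg.Geo CfsgLib.Geometric
open CfsgLib.Geometric.PauliMax (V6 sgn sgn_zero sgn_one sgn_cases sgn_sq sgn_ne_zero)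
open CfsgLib.Geometric.SympFour (Frame5)

variable {F : Type*} [Field F]

local notation "𝕄" => Matrix I8 I8 F
local notation "M₄" => Matrix I4 I4 F

/-- An isometric involution is skew on every line. -/
theorem skew_of_involution (h2 : (2 : F) ≠ 0) {ι : Type} [Fintype ι] [DecidableEq ι]
    {f : (ι → F) → (ι → F) → F} (hf : IsSymplecticForm f) {X : Matrix ι ι F} (hX : X * X = 1)
    (hiso : ∀ x y, f (X *ᵥ x) (X *ᵥ y) = f x y) (x : ι → F) : f x (X *ᵥ x) = 0 := by
  have h1 := hiso x (X *ᵥ x)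
  rw [mulVec_mulVec, hX, one_mulVec, hf.skew] at h1
  exact (mul_eq_zero.1 (show (2 : F) * f x (X *ᵥ x) = 0 by linear_combination -h1)).resolve_left h2

namespace Sys

variable (S : Sys F)

/-- The scalar multiples of the system which are isometries. -/
def lineGroup : Subgroup (GL I8 F) where
  carrier := {g | g ∈ Cfsg.spGL 4 F ∧ ∃ (z : V6) (c : F), c ≠ 0 ∧ (g : 𝕄) = c • S.P z}
  one_mem' := ⟨one_mem _, 0, 1, one_ne_zero, by rw [one_smul, S.zero, Units.val_one]⟩
  mul_mem' := by
    rintro g h ⟨hg, z, c, hc, hgz⟩ ⟨hh, z', c', hc', hhz⟩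
    obtain ⟨d, hd, hdz⟩ := S.P_add_coeff z z'
    refine ⟨mul_mem hg hh, z + z', c * c' * d⁻¹,
      mul_ne_zero (mul_ne_zero hc hc') (inv_ne_zero hd), ?_⟩
    rw [Units.val_mul, hgz, hhz, hdz, smul_mul_assoc, mul_smul_comm, smul_smul, smul_smul,
      inv_mul_cancel_right₀ hd]
  inv_mem' := by
    rintro g ⟨hg, z, c, hc, hgz⟩
    refine ⟨inv_mem hg, z, c⁻¹ * sgn F (S.q z),
      mul_ne_zero (inv_ne_zero hc) (sgn_ne_zero _), ?_⟩
    rw [← mul_one ((g⁻¹ : GL I8 F) : 𝕄), Units.inv_mul_eq_iff_eq_mul, hgz, smul_mul_assoc,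
      mul_smul_comm, smul_smul, S.sq, smul_smul,
      show c * (c⁻¹ * sgn F (S.q z)) * sgn F (S.q z) = 1 by
        rw [← mul_assoc c, mul_inv_cancel₀ hc, one_mul, sgn_sq],
      one_smul]

/-- The normaliser is proper. -/
theorem N_ne_spGL [Fintype F] (h2 : (2 : F) ≠ 0) {p : ℕ} (hp : p.Prime)
    (hcard : Fintype.card F = p) {a : V6} (ha : a ≠ 0) (hqa : S.q a = 0) :
    S.N ≠ Cfsg.spGL 4 F := by
  intro heq
  have hsym := isSymplecticForm_sympForm 4 F
  have hn : ∀ h ∈ CfsgLib.Geometric.isom (Cfsg.sympForm 4 F), ∀ l ∈ S.lineGroup, h * l * h⁻¹ ∈ S.lineGroup := by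
    rintro h hh l ⟨hl, z, c, hc, hlz⟩
    obtain ⟨w, d, hw⟩ := (heq ▸ hh : h ∈ S.N).2 z
    refine ⟨mul_mem (mul_mem hh hl) (inv_mem hh), w, c * d,
      mul_ne_zero hc (Perm.coeff_ne_zero S hw), ?_⟩
    rw [Units.val_mul, Units.val_mul, hlz, mul_smul_comm, hw, smul_smul, smul_mul_assoc,
      Units.mul_inv_cancel_right]
  have hall := SympType.isom_le_of_normal hp hcard h2 hsym hn (P := S.gl a)
    ⟨S.gl_mem_sp a, a, 1, one_ne_zero, by rw [one_smul]; rfl⟩ (S.gl_mem_sp a)
    (fun x => by rw [ap_def, ap_def, coe_gl, mulVec_mulVec, S.sq_of_singular hqa, one_mulVec])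
    (skew_of_involution h2 hsym (S.sq_of_singular hqa) (S.isom a))
    (fun c h => ha (S.eq_of_smul_P (c := c) (by rw [S.zero]; exact h)))
  set v : I8 → F := Pi.single (Sum.inl 0) 1
  have hv0 : v ≠ 0 := by simp [v]
  obtain ⟨-, z, c, hc, hz⟩ := hall (Symp.T_mem_isom hsym v 1)
  have hap : ∀ x, x + Cfsg.sympForm 4 F x v • v = c • (S.P z *ᵥ x) := fun x => by
    rw [← smul_mulVec, ← hz, ← ap_def, Symp.ap_T hsym, one_mul]
  have hne : ∀ x, Cfsg.sympForm 4 F x v = 0 → S.P z *ᵥ x = c⁻¹ • x := fun x hx => by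
    have := hap x
    rw [hx, zero_smul, add_zero] at this
    nth_rewrite 2 [this]
    rw [smul_smul, inv_mul_cancel₀ hc, one_smul]
  have hcv := hne v (hsym.alternating v)
  have hcc : c * c = sgn F (S.q z) := by
    have h1 : (sgn F (S.q z)) • v = (c⁻¹ * c⁻¹) • v := by
      rw [← smul_smul, ← hcv, ← mulVec_smul, ← hcv, mulVec_mulVec, S.sq, smul_mulVec, one_mulVec]
    have := smul_left_injective F hv0 h1
    rcases sgn_cases (F := F) (S.q z) with e | e <;> rw [e] at this ⊢ <;> field_simp at this <;>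
      first | linear_combination this | linear_combination -this
  obtain ⟨x, hx⟩ := (hsym.nondegenerate v hv0).1
  have h3 : c • (S.P z *ᵥ (c • (S.P z *ᵥ x))) = x + ((2 : F) * Cfsg.sympForm 4 F x v) • v := by
    rw [← hap x, ← hap, hsym.bilinear.add_left, hsym.bilinear.smul_left, hsym.alternating]
    module
  rw [mulVec_smul, mulVec_mulVec, S.sq, smul_mulVec, one_mulVec, smul_smul, smul_smul, hcc, sgn_sq,
    one_smul] at h3
  have h4 : ((2 : F) * Cfsg.sympForm 4 F x v) • v = 0 := left_eq_add.1 h3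
  exact mul_ne_zero h2 hx ((smul_eq_zero.1 h4).resolve_right hv0)

end Sys

namespace Split

variable {S : Sys F} {a u : V6} (sp : Split S a u) {M : Subgroup (GL I8 F)}

/-- The frame of five in the projections. -/
theorem frame5 (h2 : (2 : F) ≠ 0) (hNM : S.N ≤ M) (hM : M ≤ Cfsg.spGL 4 F) :
    Frame5 sp.Γ (sp.projGroup M) where
  anti := sp.anti
  adj_eq := sp.adj_eq
  le := by
    rintro A ⟨⟨A', B⟩, h, rfl⟩
    exact (sp.bd_mem_sp.1 (hM h)).1
  two := h2
  gam := fun i => by
    refine ⟨sp.gam i, sp.mem_projGroup (B := sp.gam i)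
      (hNM (sp.bd_diag_mem_N (sp.gam_mem_sp i) fun j => ?_)), rfl⟩
    by_cases h : i = j
    · subst h; exact ⟨i, 1, by simp⟩
    · exact ⟨j, -1, by simp [sp.anti.anti i j h]⟩
  perm := fun i j k l hij hkl => by
    obtain ⟨g, hg, hgv⟩ := S.exists_subProd h2 (sp.five.q_z i) (sp.five.q_z j) (sp.five.q_z k)
      (sp.five.q_z l) (sp.five.B_z i j hij) (sp.five.B_z k l hkl)
    have hz : ∀ m, S.P (sp.z m) * S.P a = S.P a * S.P (sp.z m) := fun m =>
      S.commute_of_B ((S.sk _ _).trans (sp.five.B_a m))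
    have hgc : (g : 𝕄) * S.P a = S.P a * (g : 𝕄) := by
      rw [hgv, smul_mul_assoc, mul_smul_comm]
      congr 1
      simp only [sub_mul, mul_sub, mul_assoc, hz]
      simp only [← mul_assoc, hz]
    obtain ⟨A, B, rfl⟩ := sp.exists_bd h2 hgc
    have hv : fromBlocks (A : M₄) 0 0 (B : M₄) =
        fromBlocks ((2 : F)⁻¹ • ((sp.Γ i - sp.Γ j) * (sp.Γ k - sp.Γ l))) 0 0
          ((2 : F)⁻¹ • ((sp.Γ i - sp.Γ j) * (sp.Γ k - sp.Γ l))) := by
      rw [← sp.Φ_bd, hgv, map_smul, map_mul, map_sub, map_sub, sp.P_z, sp.P_z, sp.P_z, sp.P_z]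
      simp [sub_eq_add_neg, fromBlocks_add, fromBlocks_neg, fromBlocks_multiply, fromBlocks_smul]
    exact ⟨A, sp.mem_projGroup (hNM hg), (fromBlocks_inj.1 hv).1⟩

/-- If all isometries of a block are projections, `M` is everything. -/
theorem eq_spGL_of_big [Fintype F] (h2 : (2 : F) ≠ 0) {p : ℕ} (hp : p.Prime)
    (hcard : Fintype.card F = p) (hNM : S.N ≤ M) (hM : M ≤ Cfsg.spGL 4 F)
    (hbig : Cfsg.spGL 2 F ≤ sp.projGroup M) : M = Cfsg.spGL 4 F := by
  have hsym := isSymplecticForm_sympForm 4 F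
  have hsym4 := isSymplecticForm_sympForm 2 F
  have hn : ∀ h ∈ CfsgLib.Geometric.isom (Cfsg.sympForm 2 F), ∀ l ∈ sp.kerGroup M, h * l * h⁻¹ ∈ sp.kerGroup M := by
    intro h hh l hl
    obtain ⟨⟨h', B⟩, hB, rfl⟩ := hbig hh
    have hB' := sp.bd_swap_mem hNM (show sp.bd (h', B) ∈ M from hB)
    have := mul_mem (mul_mem hB' (show sp.bd (1, l) ∈ M from hl)) (inv_mem hB')
    rw [← map_mul, ← map_inv, ← map_mul] at this
    show sp.bd (1, _) ∈ M
    simpa using this
  have hns : ∀ c : F, (sp.Γ 0 : M₄) ≠ c • 1 := fun c h => by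
    have h' := sp.anti.anti 0 1 (by decide)
    rw [h, smul_mul_assoc, mul_smul_comm, one_mul, mul_one] at h'
    have h2' : (2 : F) • (c • sp.Γ 1) = 0 := by
      rw [two_smul]; nth_rewrite 1 [h']; exact neg_add_cancel _
    have h0 := sp.anti.sq 0
    rcases smul_eq_zero.1 h2' with h3 | h3
    · exact h2 h3
    rcases smul_eq_zero.1 h3 with h4 | h4
    · rw [h, h4, zero_smul, zero_mul] at h0
      exact zero_ne_one h0
    · exact Units.ne_zero (sp.gam 1) h4
  have hT : CfsgLib.Geometric.isom (Cfsg.sympForm 2 F) ≤ sp.kerGroup M :=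
    SympType.isom_le_of_normal hp hcard h2 hsym4 hn (P := sp.gam 0)
      (show sp.bd (1, sp.gam 0) ∈ M from hNM (sp.bd_one_gam_mem_N 0)) (sp.gam_mem_sp 0)
      (fun x => by rw [ap_def, ap_def, coe_gam, mulVec_mulVec, sp.anti.sq, one_mulVec])
      (skew_of_involution h2 hsym4 (sp.anti.sq 0) fun x y => sp.gam_mem_sp 0 x y) hns
  have hblocks : ∀ A B : GL I4 F, A ∈ Cfsg.spGL 2 F → B ∈ Cfsg.spGL 2 F → sp.bd (A, B) ∈ M := by
    intro A B hA hB
    have := mul_mem (sp.bd_swap_mem hNM (show sp.bd (1, A) ∈ M from hT hA))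
      (show sp.bd (1, B) ∈ M from hT hB)
    rwa [← map_mul, Prod.mk_mul_mk, mul_one, one_mul] at this
  have hcomm : ∀ g ∈ Cfsg.spGL 4 F, (g : 𝕄) * S.P a = S.P a * (g : 𝕄) → g ∈ M := by
    intro g hg hga
    obtain ⟨A, B, rfl⟩ := sp.exists_bd h2 hga
    exact hblocks A B (sp.bd_mem_sp.1 hg).1 (sp.bd_mem_sp.1 hg).2
  -- the two eigenspaces
  let ε : Fin 2 → F := ![1, -1]
  let D : Fin 2 → Submodule F (I8 → F) := fun i =>
    LinearMap.ker (Matrix.toLin' (S.P a - ε i • 1))
  have hmem : ∀ i z, z ∈ D i ↔ S.P a *ᵥ z = ε i • z := fun i z => by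
    simp [D, sub_eq_zero]
  have hAA : ∀ z, S.P a *ᵥ (S.P a *ᵥ z) = z := fun z => by
    rw [mulVec_mulVec, S.sq_of_singular sp.five.q_a, one_mulVec]
  have hform0 : ∀ i, ∀ z ∈ D i, ∀ j, i ≠ j → ∀ z' ∈ D j, Cfsg.sympForm 4 F z z' = 0 := by
    intro i z hz j hij z' hz'
    have h1 := S.isom a z z'
    rw [(hmem i z).1 hz, (hmem j z').1 hz', hsym.bilinear.smul_left, hsym.bilinear.smul_right] at h1
    have hεε : ε i * ε j = -1 := by
      fin_cases i <;> fin_cases j <;> first | exact absurd rfl hij | simp [ε]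
    exact (mul_eq_zero.1 (show (2 : F) * Cfsg.sympForm 4 F z z' = 0 by
      linear_combination -h1 + Cfsg.sympForm 4 F z z' * hεε)).resolve_left h2
  have hdisj : ∀ i j, i ≠ j → Disjoint (D i) (D j) := by
    intro i j hij
    rw [Submodule.disjoint_def]
    intro z hz hz'
    have he := ((hmem i z).1 hz).symm.trans ((hmem j z).1 hz')
    have hne : ε i - ε j ≠ 0 := by
      have h : ε i - ε j = 2 ∨ ε i - ε j = -2 := by
        fin_cases i <;> fin_cases j <;>
          first | exact absurd rfl hij | (left; norm_num [ε]; done) | (right; norm_num [ε]; done)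
      rcases h with h | h <;> rw [h]
      exacts [h2, neg_ne_zero.2 h2]
    have : (ε i - ε j) • z = 0 := by rw [sub_smul, he, sub_self]
    exact (smul_eq_zero.1 this).resolve_left hne
  have hsup : D 0 ⊔ D 1 = ⊤ := eq_top_iff.2 fun z _ => by
    have h0 : (2 : F)⁻¹ • (z + S.P a *ᵥ z) ∈ D 0 := by
      rw [hmem, mulVec_smul, mulVec_add, hAA, show ε 0 = 1 from rfl, one_smul, add_comm]
    have h1 : (2 : F)⁻¹ • (z - S.P a *ᵥ z) ∈ D 1 := by
      rw [hmem, mulVec_smul, mulVec_sub, hAA, show ε 1 = -1 from rfl, neg_one_smul, ← smul_neg,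
        neg_sub]
    have e : (2 : F)⁻¹ • (z + S.P a *ᵥ z) + (2 : F)⁻¹ • (z - S.P a *ᵥ z) = z := by
      rw [← smul_add, show z + S.P a *ᵥ z + (z - S.P a *ᵥ z) = (2 : F) • z by
        rw [two_smul]; abel, inv_smul_smul₀ h2]
    rw [← e]
    exact Submodule.add_mem_sup h0 h1
  have hfr : ∀ i, Module.finrank F (D i) = 4 := by
    have hswap : ∀ i j, i ≠ j → Module.finrank F (D i) ≤ Module.finrank F (D j) := by
      intro i j hij
      have hmap : ∀ z ∈ D i, Matrix.toLin' (S.P u) z ∈ D j := by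
        intro z hz
        rw [Matrix.toLin'_apply, hmem, mulVec_mulVec, S.anti_of_B sp.five.B_au, neg_mulVec,
          ← mulVec_mulVec, (hmem i z).1 hz, mulVec_smul, ← neg_smul]
        congr 1
        fin_cases i <;> fin_cases j <;> first | exact absurd rfl hij | simp [ε]
      refine LinearMap.finrank_le_finrank_of_injective
        (f := LinearMap.restrict (Matrix.toLin' (S.P u)) hmap) fun x y h => Subtype.ext ?_
      have h' := congrArg (fun w : D j => S.P u *ᵥ (w : I8 → F)) h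
      simpa [LinearMap.restrict_apply, mulVec_mulVec, S.sq_of_singular sp.five.q_u] using h'
    have htot : Module.finrank F (D 0) + Module.finrank F (D 1) = 8 := by
      rw [← Submodule.finrank_sup_add_finrank_inf_eq, hsup, (hdisj 0 1 (by decide)).eq_bot,
        finrank_bot, finrank_top, Module.finrank_pi]
      simp
    intro i
    have := hswap 0 1 (by decide)
    have := hswap 1 0 (by decide)
    rcases (show i = 0 ∨ i = 1 by omega) with rfl | rfl <;> omega
  have hDdec : IsNondegenerateMDecomposition (Cfsg.sympForm 4 F) 4 D := by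
    refine ⟨⟨le_rfl, by norm_num, hfr, ?_, ?_⟩, fun i z hz hz0 => ?_,
      fun i j hij z hz z' hz' => hform0 i z hz j hij z' hz'⟩
    · intro i
      fin_cases i
      · exact (hdisj 0 1 (by decide)).mono_right (iSup₂_le fun j hj => by
          fin_cases j
          · exact absurd rfl hj
          · exact le_rfl)
      · exact (hdisj 1 0 (by decide)).mono_right (iSup₂_le fun j hj => by
          fin_cases j
          · exact le_rfl
          · exact absurd rfl hj)
    · exact eq_top_iff.2 (hsup ▸ sup_le (le_iSup D 0) (le_iSup D 1))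
    · have key : ∃ z' ∈ D i, Cfsg.sympForm 4 F z z' ≠ 0 := by
        by_contra hcon
        push Not at hcon
        obtain ⟨w, hw⟩ := (hsym.nondegenerate z hz0).2
        have hwmem : w ∈ D 0 ⊔ D 1 := hsup ▸ Submodule.mem_top
        obtain ⟨w0, hw0, w1, hw1, rfl⟩ := Submodule.mem_sup.1 hwmem
        rw [hsym.bilinear.add_right] at hw
        fin_cases i
        · exact hw (by rw [hcon w0 hw0, hform0 0 z hz 1 (by decide) w1 hw1, add_zero])
        · exact hw (by rw [hcon w1 hw1, hform0 1 z hz 0 (by decide) w0 hw0, add_zero])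
      obtain ⟨z', hz', hne⟩ := key
      exact ⟨⟨z', hz', fun h => hne ((Symp.eq_zero_comm hsym).1 h)⟩, z', hz', hne⟩
  -- the stabiliser of the eigenspaces lies in `M`
  have hpm : ∀ g ∈ decompositionStabilizer D, ∃ s : F, (s = 1 ∨ s = -1) ∧
      (g : 𝕄) * S.P a = s • (S.P a * (g : 𝕄)) := by
    rintro g ⟨σ, hσ⟩
    have hmap : ∀ i z, z ∈ D i → (g : 𝕄) *ᵥ z ∈ D (σ i) := fun i z hz => by
      rw [← hσ i]; exact ⟨z, hz, rfl⟩
    obtain ⟨s, hs, hsσ⟩ : ∃ s : F, (s = 1 ∨ s = -1) ∧ ∀ i, s * ε (σ i) = ε i := by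
      by_cases h0 : σ 0 = 0
      · have h1 : σ 1 = 1 := by
          have : σ 1 ≠ 0 := fun e => absurd (σ.injective (e.trans h0.symm)) (by decide)
          omega
        exact ⟨1, Or.inl rfl, fun i => by fin_cases i <;> simp [h0, h1]⟩
      · have h0' : σ 0 = 1 := by omega
        have h1 : σ 1 = 0 := by
          have : σ 1 ≠ 1 := fun e => absurd (σ.injective (e.trans h0'.symm)) (by decide)
          omega
        exact ⟨-1, Or.inr rfl, fun i => by fin_cases i <;> simp [h0', h1, ε]⟩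
    refine ⟨s, hs, Matrix.ext_of_mulVec_single fun j => ?_⟩
    generalize (Pi.single j (1 : F) : I8 → F) = z
    have hmemz : z ∈ D 0 ⊔ D 1 := hsup ▸ Submodule.mem_top
    obtain ⟨z0, hz0, z1, hz1, rfl⟩ := Submodule.mem_sup.1 hmemz
    have key : ∀ i z, z ∈ D i →
        ((g : 𝕄) * S.P a) *ᵥ z = (s • (S.P a * (g : 𝕄))) *ᵥ z := by
      intro i z hz
      rw [← mulVec_mulVec, smul_mulVec, ← mulVec_mulVec, (hmem i z).1 hz, mulVec_smul,
        (hmem _ _).1 (hmap i z hz), smul_smul, hsσ i]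
    rw [mulVec_add, mulVec_add, key 0 z0 hz0, key 1 z1 hz1]
  have hH : decompositionStabilizer D ⊓ CfsgLib.Geometric.isom (Cfsg.sympForm 4 F) ≤ M := by
    rintro g ⟨hgD, hgI⟩
    obtain ⟨s, rfl | rfl, hs⟩ := hpm g hgD
    · exact hcomm g hgI (by rw [hs, one_smul])
    · have hu : (S.gl u : GL I8 F) * g ∈ M := by
        refine hcomm _ (mul_mem (S.gl_mem_sp u) hgI) ?_
        rw [Units.val_mul, Sys.coe_gl, mul_assoc, hs, mul_smul_comm, ← mul_assoc (S.P a),
          S.anti_of_B sp.five.B_au, neg_mul, mul_assoc, neg_one_smul]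
      have := mul_mem (inv_mem (hNM (S.gl_mem_N u))) hu
      rwa [inv_mul_cancel_left] at this
  rcases (Symp.decompStab_isMaximalIn hsym hDdec (by omega)).2 M hH hM with h | h
  swap
  · exact h
  exfalso
  -- an element of the normaliser moving `a`
  have hu0 : u ≠ 0 := fun h' => by
    have := sp.five.B_au; rw [h', map_zero] at this; exact zero_ne_one this
  have ha0 : a ≠ 0 := fun h' => by
    have := sp.five.B_au; rw [h', map_zero, LinearMap.zero_apply] at this; exact zero_ne_one this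
  obtain ⟨n, hn', c, hc⟩ := S.singular_transitive h2 ha0 hu0 sp.five.q_a sp.five.q_u
  have hnD : n ∈ decompositionStabilizer D := (h ▸ hNM hn').1
  obtain ⟨s, -, hs⟩ := hpm n hnD
  have h1 : u = a := by
    rw [← (S.act_unique hn' hc).1, (S.act_unique hn' hs).1]
  have := sp.five.B_au
  rw [h1, S.B_self] at this
  exact zero_ne_one this

/-- Away from the full group the projections are small. -/
theorem small_of_ne [Fintype F] (h2 : (2 : F) ≠ 0) {p : ℕ} (hp : p.Prime)
    (hcard : Fintype.card F = p) (hNM : S.N ≤ M) (hM : M ≤ Cfsg.spGL 4 F)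
    (hne : M ≠ Cfsg.spGL 4 F) : sp.Small M := by
  rcases (sp.frame5 h2 hNM hM).rigid hp hcard with h | h
  · exact absurd (sp.eq_spGL_of_big h2 hp hcard hNM hM h) hne
  · exact h

/-- Some isometry is outside the normaliser. -/
theorem exists_not_mem [Fintype F] (sp : Split S a u) (h2 : (2 : F) ≠ 0) {p : ℕ} (hp : p.Prime)
    (hcard : Fintype.card F = p) : ∃ g ∈ Cfsg.spGL 4 F, g ∉ S.N := by
  have ha0 : a ≠ 0 := fun h' => by
    have := sp.five.B_au; rw [h', map_zero, LinearMap.zero_apply] at this; exact zero_ne_one this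
  by_contra h
  push Not at h
  exact S.N_ne_spGL h2 hp hcard ha0 sp.five.q_a (le_antisymm S.N_le h)

end Split

end CfsgLib.Geometric.PauliMinus
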