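import Cfsg.Agent.Lib.Geometric.PauliMinus.Fusion
import Cfsg.Agent.Lib.Involutions.Basic

/-!
If the centralisers of the elements with singular label lie in `N`, then `N` is the whole group.
-/

set_option autoImplicit false

namespace CfsgLib.Geometric.PauliMinus

open Module CfsgLib.Involutions
open CfsgLib.Geometric.PauliMax (V6 two_torsion neg_eq_self add_eq_zero_iff')

/-- Two non-conjugate involutions: an involution centralising both, whose product with the first is
conjugate to one of them. -/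
theorem exists_half {G : Type*} [Group G] [Finite G] {x y : G} (hx : orderOf x = 2)
    (hy : orderOf y = 2) (hnc : ¬ IsConj x y) :
    ∃ w : G, orderOf w = 2 ∧ Commute w x ∧ Commute w y ∧ (IsConj x (w * x) ∨ IsConj y (w * x)) := by
  obtain ⟨w, hwo, hwx, hwy, hwp⟩ := exists_commuting_involution hx hy hnc
  refine ⟨w, hwo, hwx, hwy, ?_⟩
  obtain ⟨j, rfl⟩ := Subgroup.mem_zpowers_iff.1 hwp
  rcases Int.even_or_odd' j with ⟨i, rfl | rfl⟩
  · exact Or.inl (isConj_iff.2 ⟨(x * y) ^ i, conj_left_by_zpow hx hy i⟩)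
  · refine Or.inr (isConj_iff.2 ⟨(x * y) ^ (i + 1), ?_⟩)
    conv_lhs => arg 1; arg 2; rw [right_eq_zpow_mul hx hy]
    rw [← mul_assoc, ← zpow_add, ← zpow_neg, mul_assoc, mul_zpow_eq hx hy, ← mul_assoc, ← zpow_add]
    congr 2
    ring

namespace Data

variable {G : Type*} [Group G] {N : Subgroup G} (D : Data G N)

theorem exists_nonsingular : ∃ c, D.q c = 1 := by
  by_contra h
  push Not at h
  have hq : ∀ v, D.q v = 0 := fun v => (zmod_two_cases _).resolve_right (h v)
  have hB : ∀ v w, D.B v w = 0 := fun v w => by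
    have := D.q_add v w
    rw [hq, hq, hq, zero_add, zero_add] at this
    exact this.symm
  have hz := D.nondeg (Pi.single 0 1) (hB _)
  simp at hz

theorem exists_singular_one {c : V6} (hc : D.q c = 1) : ∃ u, D.q u = 0 ∧ D.B u c = 1 := by
  have hc0 : c ≠ 0 := by
    rintro rfl
    rw [D.q_zero] at hc
    exact zero_ne_one hc
  obtain ⟨u₀, hu₀⟩ := D.exists_one hc0
  rw [D.sk] at hu₀
  rcases zmod_two_cases (D.q u₀) with h | h
  · exact ⟨u₀, h, hu₀⟩
  set X := D.perp (Submodule.span (ZMod 2) ({u₀, c} : Set V6)) with hX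
  obtain ⟨w, hw, hqw⟩ : ∃ w ∈ X, D.q w = 1 := by
    by_contra hne
    push Not at hne
    have hq : ∀ w ∈ X, D.q w = 0 := fun w hw => (zmod_two_cases _).resolve_right (hne w hw)
    have hle : X ≤ D.perp X := fun y hy w hw => by
      have := D.q_add w y
      rw [hq _ (add_mem hw hy), hq w hw, hq y hy, zero_add, zero_add] at this
      exact this.symm
    have h2 : finrank (ZMod 2) (Submodule.span (ZMod 2) ({u₀, c} : Set V6)) ≤ 2 := by
      classical
      rw [show ({u₀, c} : Set V6) = (({u₀, c} : Finset V6) : Set V6) by simp]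
      exact (finrank_span_finset_le_card _).trans Finset.card_le_two
    have h3 := Submodule.finrank_mono hle
    rw [hX, D.perp_perp, D.finrank_perp] at h3
    omega
  refine ⟨u₀ + w, ?_, ?_⟩
  · rw [D.q_add, h, hqw, hw u₀ (Submodule.subset_span (by simp))]
    decide
  · rw [map_add, LinearMap.add_apply, hu₀, D.sk w c, hw c (Submodule.subset_span (by simp)),
      add_zero]

theorem perp_singleton_coisotropic (c : V6) :
    D.perp (D.perp (Submodule.span (ZMod 2) {c})) ≤ D.perp (Submodule.span (ZMod 2) {c}) := by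
  rw [D.perp_perp]
  intro y hy w hw
  obtain ⟨r, rfl⟩ := Submodule.mem_span_singleton.1 hy
  obtain ⟨t, rfl⟩ := Submodule.mem_span_singleton.1 hw
  simp [D.B_self]

theorem exists_label [Finite G] (hloc : D.LocalSing) {h : G} {a : V6} (ha : a ≠ 0)
    (hqa : D.q a = 0) {z : G} (hz : z ∈ N) (e : h * D.x a * h⁻¹ = z) :
    ∃ a', z = D.x a' ∧ D.q a' = 0 ∧ a' ≠ 0 := by
  have hh : h ∈ N := D.fusion hloc ha hqa (e ▸ hz)
  refine ⟨D.s h a, by rw [← e, D.conj h hh], by rw [D.q_s hh, hqa], fun h0 => ha ?_⟩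
  have h1 : h * D.x a * h⁻¹ = 1 := by rw [D.conj h hh, h0, D.x_zero]
  exact D.x_eq_one.1 (conj_eq_one_iff.1 h1)

/-- The centralisers of the elements with nonsingular label lie in `N`. -/
theorem localNonsing [Finite G] (hloc : D.LocalSing) {c : V6} (hc : D.q c = 1) {g : G}
    (hg : Commute g (D.x c)) : g ∈ N := by
  by_contra hgN
  obtain ⟨u, hqu, huc⟩ := D.exists_singular_one hc
  have hu0 : u ≠ 0 := by
    rintro rfl
    rw [map_zero, LinearMap.zero_apply] at huc
    exact zero_ne_one huc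
  set y := g * D.x u * g⁻¹ with hy
  set H := Subgroup.centralizer ({D.x c} : Set G) with hH
  have hgH : g ∈ H := Subgroup.mem_centralizer_singleton_iff.2 hg.eq
  have hxH : ∀ v, D.x v ∈ H := fun v =>
    Subgroup.mem_centralizer_singleton_iff.2 (D.x_commute v c).eq
  have hyH : y ∈ H := mul_mem (mul_mem hgH (hxH u)) (inv_mem hgH)
  -- elements of `E` are anisotropic
  have hE : ∀ e, Commute y (D.x e) → e ≠ 0 → D.q e = 1 := fun e he he0 =>
    zmod_two_one fun hq => hgN (D.fusion hloc hu0 hqu (hloc e he0 hq y he))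
  have hEadd : ∀ {e f}, Commute y (D.x e) → Commute y (D.x f) → Commute y (D.x (e + f)) := by
    intro e f he hf
    rw [D.x_add]
    exact he.mul_right hf
  have hyc : Commute y (D.x c) := (hg.mul_left (D.x_commute u c)).mul_left hg.inv_left
  have key : ∀ b, b ≠ 0 → D.q b = 0 → D.B b c = 0 →
      ∃ e, Commute y (D.x e) ∧ D.B b e = 1 ∧ D.B c e = 1 := by
    intro b hb hqb hbc
    have hxo : orderOf (⟨D.x b, hxH b⟩ : H) = 2 := by
      rw [← Subgroup.orderOf_coe]; exact D.orderOf_x hb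
    have hyo : orderOf (⟨y, hyH⟩ : H) = 2 := by
      rw [← Subgroup.orderOf_coe]
      exact (orderOf_conj g (D.x u)).trans (D.orderOf_x hu0)
    have hnc : ¬ IsConj (⟨D.x b, hxH b⟩ : H) ⟨y, hyH⟩ := by
      intro h
      obtain ⟨k, hk⟩ := isConj_iff.1 h
      have hk' : (k : G) * D.x b * (k : G)⁻¹ = y := congrArg Subtype.val hk
      have hkc : (k : G) * D.x c * (k : G)⁻¹ = D.x c := by
        rw [Subgroup.mem_centralizer_singleton_iff.1 k.2, mul_inv_cancel_right]
      have hgc : g * D.x c * g⁻¹ = D.x c := by rw [hg.eq, mul_inv_cancel_right]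
      have h1 := D.ε_conj (k : G) _ _ (D.x_commute b c)
      have h2 := D.ε_conj g _ _ (D.x_commute u c)
      rw [hk', hkc] at h1
      rw [hgc, ← hy, h1, D.ε_x, D.ε_x, hbc, huc] at h2
      exact zero_ne_one h2
    obtain ⟨w, hwo, hwx, hwy, hconj⟩ := exists_half hxo hyo hnc
    have hwo' : orderOf (w : G) = 2 := by rw [Subgroup.orderOf_coe]; exact hwo
    have hwx' : Commute (w : G) (D.x b) := congrArg Subtype.val hwx.eq
    have hwy' : Commute (w : G) y := congrArg Subtype.val hwy.eq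
    have hwN : (w : G) ∈ N := hloc b hb hqb _ hwx'
    have hwb : (w : G) * D.x b ∈ N := mul_mem hwN (D.x_mem b)
    obtain ⟨a', ha', hqa', -⟩ : ∃ a', (w : G) * D.x b = D.x a' ∧ D.q a' = 0 ∧ a' ≠ 0 := by
      rcases hconj with h | h
      · obtain ⟨k, hk⟩ := isConj_iff.1 h
        exact D.exists_label hloc hb hqb (h := (k : G)) hwb (congrArg Subtype.val hk)
      · obtain ⟨k, hk⟩ := isConj_iff.1 h
        refine D.exists_label hloc hu0 hqu (h := (k : G) * g) hwb ?_
        have hk' : (k : G) * y * (k : G)⁻¹ = (w : G) * D.x b := congrArg Subtype.val hk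
        rw [← hk', hy]
        group
    have hwe : (w : G) = D.x (a' + b) := by
      rw [D.x_add, ← ha', mul_assoc, D.x_mul_self, mul_one]
    set e := a' + b with he
    have he0 : e ≠ 0 := fun h => ne_one hwo' (by rw [hwe, h, D.x_zero])
    have hye : Commute y (D.x e) := hwe ▸ hwy'.symm
    have hqe := hE e hye he0
    have hbe : D.B b e = 1 := by
      have h := D.q_add e b
      rw [he, add_assoc, two_torsion, add_zero, hqa', ← he, hqe, hqb, add_zero] at h
      rw [D.sk]
      revert h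
      generalize D.B e b = t
      revert t
      decide
    have hec : e ≠ c := fun h => by rw [h, hbc] at hbe; exact zero_ne_one hbe
    refine ⟨e, hye, hbe, D.B_eq_one hc hqe (hE _ (hEadd hyc hye) fun h => hec ?_)⟩
    exact ((add_eq_zero_iff' _ _).1 h).symm
  obtain ⟨b₁, b₂, hb₁, hb₂, h10, h20, h12, hq₁, hq₂, hB⟩ :=
    D.exists_line (D.perp_singleton_coisotropic c)
  have hperp : ∀ {b}, b ∈ D.perp (Submodule.span (ZMod 2) {c}) → D.B b c = 0 := fun {b} hb => by
    rw [D.sk]; exact hb c (Submodule.mem_span_singleton_self c)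
  obtain ⟨e₀, hye₀, -, hce₀⟩ := key b₁ h10 hq₁ (hperp hb₁)
  obtain ⟨b, hb, hb0, hqb, hbe₀⟩ : ∃ b, b ∈ D.perp (Submodule.span (ZMod 2) {c}) ∧ b ≠ 0 ∧
      D.q b = 0 ∧ D.B b e₀ = 0 := by
    rcases zmod_two_cases (D.B b₁ e₀) with h | h
    · exact ⟨b₁, hb₁, h10, hq₁, h⟩
    rcases zmod_two_cases (D.B b₂ e₀) with h' | h'
    · exact ⟨b₂, hb₂, h20, hq₂, h'⟩
    refine ⟨b₁ + b₂, add_mem hb₁ hb₂, fun h0 => h12 ((add_eq_zero_iff' _ _).1 h0), ?_, ?_⟩
    · rw [D.q_add, hq₁, hq₂, hB]; rfl
    · rw [map_add, LinearMap.add_apply, h, h']; decide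
  obtain ⟨e, hye, hbe, hce⟩ := key b hb0 hqb (hperp hb)
  have he0 : e ≠ 0 := by
    rintro rfl
    rw [map_zero] at hbe
    exact zero_ne_one hbe
  have he₀0 : e₀ ≠ 0 := by
    rintro rfl
    rw [map_zero] at hce₀
    exact zero_ne_one hce₀
  have hec : e ≠ c := fun h => by rw [h, hperp hb] at hbe; exact zero_ne_one hbe
  have hee : e ≠ e₀ := fun h => by rw [h, hbe₀] at hbe; exact zero_ne_one hbe
  have hee' : e + e₀ ≠ 0 := fun h => hee ((add_eq_zero_iff' _ _).1 h)
  by_cases hc' : e + e₀ = c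
  · have : e = c + e₀ := by rw [← hc', add_assoc, two_torsion, add_zero]
    rw [this, map_add, hperp hb, hbe₀, add_zero] at hbe
    exact zero_ne_one hbe
  · have h1 := D.B_eq_one hc (hE _ (hEadd hye hye₀) hee')
      (hE _ (hEadd hyc (hEadd hye hye₀)) fun h => hc' ((add_eq_zero_iff' _ _).1 h).symm)
    rw [map_add, hce, hce₀] at h1
    exact absurd h1 (by decide)

/-- An element with nonsingular label is moved into `N` only by elements of `N`. -/
theorem fusion_nonsingular [Finite G] (hloc : D.LocalSing) {h : G} {c : V6} (hc : D.q c = 1)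
    (hz : h * D.x c * h⁻¹ ∈ N) : h ∈ N := by
  set z := h * D.x c * h⁻¹ with hzdef
  have hz2 : z * z = 1 := by
    rw [hzdef, show h * D.x c * h⁻¹ * (h * D.x c * h⁻¹) = h * (D.x c * D.x c) * h⁻¹ by group,
      D.x_mul_self, mul_one, mul_inv_cancel]
  obtain ⟨v, -, hv, -, hv0, -, -, hqv, -⟩ := D.exists_line (D.perp_fix_le hz hz2)
  have hcomm : Commute z (D.x v) := (D.commute_x_iff hz).2 ((D.mem_fix hz).1 hv)
  have h1 : Commute (h⁻¹ * D.x v * h) (D.x c) := by
    have := hcomm.map (MulAut.conj h⁻¹).toMonoidHom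
    simp only [MulEquiv.coe_toMonoidHom, MulAut.conj_apply, inv_inv, hzdef] at this
    rw [show h⁻¹ * (h * D.x c * h⁻¹) * h = D.x c by group] at this
    exact this.symm
  exact inv_mem_iff.1 (D.fusion hloc hv0 hqv (g := h⁻¹) (by
    rw [inv_inv]; exact D.localNonsing hloc hc h1))

/-- The global step. -/
theorem eq_top [Finite G] (hloc : D.LocalSing) : N = ⊤ := by
  rw [eq_top_iff]
  intro g _
  obtain ⟨c, hc⟩ := D.exists_nonsingular
  obtain ⟨a, hqa, hac⟩ := D.exists_singular_one hc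
  have ha0 : a ≠ 0 := by
    rintro rfl
    rw [map_zero, LinearMap.zero_apply] at hac
    exact zero_ne_one hac
  have hc0 : c ≠ 0 := by
    rintro rfl
    rw [D.q_zero] at hc
    exact zero_ne_one hc
  set y := g * D.x c * g⁻¹ with hy
  have hyo : orderOf y = 2 := (orderOf_conj g (D.x c)).trans (D.orderOf_x hc0)
  have hnc : ¬ IsConj (D.x a) y := by
    intro h
    obtain ⟨k, hk⟩ := isConj_iff.1 h
    have h1 := D.q_conj (g⁻¹ * k) a c (by
      rw [show g⁻¹ * k * D.x a * (g⁻¹ * k)⁻¹ = g⁻¹ * (k * D.x a * k⁻¹) * g by group, hk, hy]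
      group)
    rw [hqa, hc] at h1
    exact zero_ne_one h1
  obtain ⟨w, hwo, hwa, hwy, hconj⟩ := exists_half (D.orderOf_x ha0) hyo hnc
  have hwN : w ∈ N := hloc a ha0 hqa w hwa
  have hwa' : w * D.x a ∈ N := mul_mem hwN (D.x_mem a)
  obtain ⟨a', ha'⟩ : ∃ a', w * D.x a = D.x a' := by
    rcases hconj with h | h
    · obtain ⟨k, hk⟩ := isConj_iff.1 h
      exact ⟨_, (D.exists_label hloc ha0 hqa hwa' hk).choose_spec.1⟩
    · obtain ⟨k, hk⟩ := isConj_iff.1 h
      have hk' : k * g * D.x c * (k * g)⁻¹ = w * D.x a := by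
        rw [← hk, hy]; group
      have hkg : k * g ∈ N := D.fusion_nonsingular hloc hc (hk'.symm ▸ hwa')
      exact ⟨_, hk'.symm.trans (D.conj _ hkg c)⟩
  have hwe : w = D.x (a' + a) := by
    rw [D.x_add, ← ha', mul_assoc, D.x_mul_self, mul_one]
  have he0 : a' + a ≠ 0 := fun h => ne_one hwo (by rw [hwe, h, D.x_zero])
  have hye : Commute y (D.x (a' + a)) := hwe ▸ (show Commute w y from hwy).symm
  refine D.fusion_nonsingular hloc hc ?_
  rcases zmod_two_cases (D.q (a' + a)) with h | h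
  · exact hloc _ he0 h y hye
  · exact D.localNonsing hloc h hye

end Data

end CfsgLib.Geometric.PauliMinus
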