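import Cfsg.Agent.Lib.Geometric.PauliMinus.Action
import Cfsg.Agent.Lib.Geometric.PauliMinus.Global

/-!
An overgroup in `Sp_8` of the normaliser of a system of minus type in which the centralisers of the
elements with singular label normalise the system is the normaliser.
-/

set_option autoImplicit false
set_option linter.unusedSectionVars false

namespace CfsgLib.Geometric.PauliMinus

open Cfsg.Geo
open CfsgLib.Geometric.PauliMax (V6 sgn sgn_zero sgn_one sgn_cases sgn_sq sgn_inj sgn_add sgn_ne_zero)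

variable {F : Type*} [Field F]

local notation "𝕄" => Matrix I8 I8 F

variable {M : Subgroup (GL I8 F)}

/-- The scalars of `M`. -/
abbrev scal (M : Subgroup (GL I8 F)) : Subgroup M := (scalars I8 F).subgroupOf M

instance scal_normal : (scal M).Normal := ⟨fun g hg x => by
  have e : x * g * x⁻¹ = g := by
    apply Subtype.ext
    obtain ⟨c, hc⟩ := (mem_scalars_iff (g : GL I8 F)).1 hg
    have e1 : (g : GL I8 F) * x = x * g := by
      apply Units.ext
      rw [Units.val_mul, Units.val_mul, hc, smul_mul_assoc, one_mul, mul_smul_comm, mul_one]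
    show (x : GL I8 F) * g * (x : GL I8 F)⁻¹ = g
    rw [← e1, mul_inv_cancel_right]
  rw [e]; exact hg⟩

/-- The quotient of `M` by its scalars. -/
abbrev Q (M : Subgroup (GL I8 F)) := M ⧸ scal M

/-- A representative. -/
noncomputable def rep (M : Subgroup (GL I8 F)) (q : Q M) : GL I8 F :=
  ((Quotient.out q : M) : GL I8 F)

variable (M) in
theorem mk_eq_mk {g h : M} {c : F} (hgh : ((g : GL I8 F) : 𝕄) = c • ((h : GL I8 F) : 𝕄)) :
    (QuotientGroup.mk g : Q M) = QuotientGroup.mk h := by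
  rw [QuotientGroup.eq]
  have hc : c ≠ 0 := fun h0 => Units.ne_zero (g : GL I8 F) (by rw [hgh, h0, zero_smul])
  refine (mem_scalars_iff _).2 ⟨Units.mk0 c⁻¹ (inv_ne_zero hc), ?_⟩
  have e : ((h : GL I8 F) : 𝕄) = c⁻¹ • ((g : GL I8 F) : 𝕄) := by
    rw [hgh, smul_smul, inv_mul_cancel₀ hc, one_smul]
  show (((g : GL I8 F)⁻¹ * (h : GL I8 F) : GL I8 F) : 𝕄) = _
  rw [Units.val_mul, e, mul_smul_comm, Units.inv_mul]
  rfl

variable (M) in
theorem exists_smul_of_mk_eq {g h : M} (e : (QuotientGroup.mk g : Q M) = QuotientGroup.mk h) :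
    ∃ c : F, ((g : GL I8 F) : 𝕄) = c • ((h : GL I8 F) : 𝕄) := by
  have h1 : h⁻¹ * g ∈ scal M := QuotientGroup.eq.1 e.symm
  obtain ⟨c, hc⟩ := (mem_scalars_iff ((h : GL I8 F)⁻¹ * (g : GL I8 F))).1 h1
  refine ⟨c, ?_⟩
  have hc' : (((h : GL I8 F)⁻¹ * (g : GL I8 F) : GL I8 F) : 𝕄) = (c : F) • 1 := hc
  calc ((g : GL I8 F) : 𝕄) =
        ((h : GL I8 F) : 𝕄) * (((h : GL I8 F)⁻¹ * (g : GL I8 F) : GL I8 F) : 𝕄) := by
        rw [← Units.val_mul, mul_inv_cancel_left]
    _ = _ := by rw [hc', mul_smul_comm, mul_one]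

variable (M) in
theorem rep_smul (g : M) :
    ∃ c : F, (rep M (QuotientGroup.mk g) : 𝕄) = c • ((g : GL I8 F) : 𝕄) :=
  exists_smul_of_mk_eq M (QuotientGroup.out_eq' _)

open scoped Classical in
/-- The sign of the commutator of two classes. -/
noncomputable def eps (p r : Q M) : ZMod 2 :=
  if (rep M p : 𝕄) * (rep M r : 𝕄) = (rep M r : 𝕄) * (rep M p : 𝕄) then 0 else 1

theorem eps_eq (h2 : (2 : F) ≠ 0) {g h : M} {a : ZMod 2}
    (e : ((g : GL I8 F) : 𝕄) * ((h : GL I8 F) : 𝕄) =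
      sgn F a • (((h : GL I8 F) : 𝕄) * ((g : GL I8 F) : 𝕄))) :
    eps (QuotientGroup.mk g : Q M) (QuotientGroup.mk h) = a := by
  obtain ⟨c, hc⟩ := rep_smul M g
  obtain ⟨d, hd⟩ := rep_smul M h
  have hc0 : c ≠ 0 := fun h0 => Units.ne_zero (rep M (QuotientGroup.mk g : Q M)) (by
    rw [hc, h0, zero_smul])
  have hd0 : d ≠ 0 := fun h0 => Units.ne_zero (rep M (QuotientGroup.mk h : Q M)) (by
    rw [hd, h0, zero_smul])
  have hne : ((h : GL I8 F) : 𝕄) * ((g : GL I8 F) : 𝕄) ≠ 0 :=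
    Units.ne_zero ((h : GL I8 F) * (g : GL I8 F))
  rw [eps, hc, hd, smul_mul_smul_comm, smul_mul_smul_comm, mul_comm d c, e, smul_smul]
  rcases zmod_two_cases a with rfl | rfl
  · rw [sgn_zero, mul_one, if_pos rfl]
  · rw [sgn_one, if_neg]
    intro he
    have := smul_left_injective F hne he
    exact h2 (by
      have h' : c * d * (-1) = c * d * 1 := by rw [mul_one]; exact this
      linear_combination -(mul_left_cancel₀ (mul_ne_zero hc0 hd0) h'))

theorem eps_spec (h2 : (2 : F) ≠ 0) (hM : M ≤ Cfsg.spGL 4 F) {g h : M}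
    (hc : Commute (QuotientGroup.mk g : Q M) (QuotientGroup.mk h)) :
    ((g : GL I8 F) : 𝕄) * ((h : GL I8 F) : 𝕄) =
      sgn F (eps (QuotientGroup.mk g : Q M) (QuotientGroup.mk h)) •
        (((h : GL I8 F) : 𝕄) * ((g : GL I8 F) : 𝕄)) := by
  obtain ⟨c, hc'⟩ := exists_smul_of_mk_eq M (g := g * h) (h := h * g) hc
  have hsq := coeff_sq (g := ((g * h : M) : GL I8 F)) (h := ((h * g : M) : GL I8 F)) (hM (g * h).2)
    (hM (h * g).2) hc'
  obtain ⟨a, rfl⟩ : ∃ a, c = sgn F a := by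
    rcases mul_self_eq_one_iff.1 hsq with h | h
    · exact ⟨0, by rw [h, sgn_zero]⟩
    · exact ⟨1, by rw [h, sgn_one]⟩
  have e : ((g : GL I8 F) : 𝕄) * ((h : GL I8 F) : 𝕄) =
      sgn F a • (((h : GL I8 F) : 𝕄) * ((g : GL I8 F) : 𝕄)) := hc'
  rw [eps_eq h2 e]
  exact e

namespace Sys

variable (S : Sys F)

/-- The image of the normaliser. -/
abbrev NQ (M : Subgroup (GL I8 F)) : Subgroup (Q M) :=
  (S.N.subgroupOf M).map (QuotientGroup.mk' (scal M))

theorem mem_N_of_smul {g h : GL I8 F} (hg : g ∈ Cfsg.spGL 4 F) (hh : h ∈ S.N) {a : F}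
    (e : (g : 𝕄) = a • (h : 𝕄)) : g ∈ S.N :=
  ⟨hg, fun v => ⟨S.sP h v, S.cP h v, by
    rw [e, smul_mul_assoc, S.act_spec hh, mul_smul_comm, smul_comm]⟩⟩

theorem mem_NQ (hM : M ≤ Cfsg.spGL 4 F) {g : M} :
    (QuotientGroup.mk g : Q M) ∈ S.NQ M ↔ (g : GL I8 F) ∈ S.N := by
  constructor
  · rintro ⟨h, hh, e⟩
    obtain ⟨c, hc⟩ := exists_smul_of_mk_eq M (g := g) (h := h) e.symm
    exact S.mem_N_of_smul (hM g.2) hh hc
  · exact fun h => ⟨g, h, rfl⟩

theorem rep_mem (hM : M ≤ Cfsg.spGL 4 F) {q : Q M} (hq : q ∈ S.NQ M) : rep M q ∈ S.N := by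
  rw [← QuotientGroup.out_eq' q] at hq
  exact (S.mem_NQ hM).1 hq

theorem act_mk (hM : M ≤ Cfsg.spGL 4 F) {g : M} (hg : (g : GL I8 F) ∈ S.N) (v : V6) :
    S.sP (rep M (QuotientGroup.mk g)) v = S.sP (g : GL I8 F) v := by
  obtain ⟨c, hc⟩ := rep_smul M g
  exact S.act_congr (S.rep_mem hM ((S.mem_NQ hM).2 hg)) hg hc v

variable (hNM : S.N ≤ M)

/-- An element of the system in `M`. -/
def px (v : V6) : M := ⟨S.gl v, hNM (S.gl_mem_N v)⟩

theorem exists_label_of_conj {g : M} {a b : V6}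
    (e : (QuotientGroup.mk g : Q M) * QuotientGroup.mk (S.px hNM a) * (QuotientGroup.mk g)⁻¹ =
      QuotientGroup.mk (S.px hNM b)) :
    ∃ c : F, ((g : GL I8 F) : 𝕄) * S.P a = c • (S.P b * ((g : GL I8 F) : 𝕄)) := by
  rw [mul_inv_eq_iff_eq_mul, ← QuotientGroup.mk_mul, ← QuotientGroup.mk_mul] at e
  exact exists_smul_of_mk_eq M e

open scoped Classical in
/-- The data of the quotient. -/
noncomputable def data (h2 : (2 : F) ≠ 0) (hM : M ≤ Cfsg.spGL 4 F)
    (htr : ∀ a b, a ≠ 0 → b ≠ 0 → S.q a = 0 → S.q b = 0 →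
      ∃ g ∈ S.N, ∃ c : F, (g : 𝕄) * S.P a = c • (S.P b * (g : 𝕄))) :
    Data (Q M) (S.NQ M) where
  x v := QuotientGroup.mk (S.px hNM v)
  q := S.q
  B := S.B
  s p v := S.sP (rep M p) v
  ε := eps
  x_add a b := by
    obtain ⟨c, hc⟩ := S.add a b
    rw [← QuotientGroup.mk_mul]
    exact mk_eq_mk M hc
  x_inj a b e := by
    obtain ⟨c, hc⟩ := exists_smul_of_mk_eq M e
    exact S.eq_of_smul_P hc
  x_mem a := (S.mem_NQ hM).2 (S.gl_mem_N a)
  conj := by
    intro n hn v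
    induction n using QuotientGroup.induction_on with
    | _ g =>
      have hg := (S.mem_NQ hM).1 hn
      rw [S.act_mk hM hg v, ← QuotientGroup.mk_inv, ← QuotientGroup.mk_mul, ← QuotientGroup.mk_mul]
      refine mk_eq_mk M (c := S.cP (g : GL I8 F) v) ?_
      show (((g : GL I8 F) * S.gl v * (g : GL I8 F)⁻¹ : GL I8 F) : 𝕄) = _
      rw [Units.val_mul, Units.val_mul, coe_gl, S.act_spec hg, smul_mul_assoc, mul_assoc,
        Units.mul_inv, mul_one]
      rfl
  q_add := S.q_add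
  nondeg := S.nondeg
  minus := S.minus
  ker := by
    intro n hn h
    obtain ⟨u, c, hc⟩ := S.exists_of_fixed h2 (S.rep_mem hM hn) h
    refine ⟨u, ?_⟩
    rw [← QuotientGroup.out_eq' n]
    exact mk_eq_mk M hc
  trans := by
    intro a b ha hb hqa hqb
    obtain ⟨g, hg, c, hc⟩ := htr a b ha hb hqa hqb
    refine ⟨QuotientGroup.mk (⟨g, hNM hg⟩ : M), (S.mem_NQ hM).2 hg, ?_⟩
    rw [S.act_mk hM (g := ⟨g, hNM hg⟩) hg]
    exact (S.act_unique hg hc).1
  q_conj := by
    intro p a b e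
    induction p using QuotientGroup.induction_on with
    | _ g =>
      obtain ⟨c, hc⟩ := S.exists_label_of_conj hNM e
      exact S.q_eq_of_label h2 (hM g.2) hc
  ε_x a b := eps_eq h2 (S.comm a b)
  ε_conj := by
    intro k p r hpr
    induction k using QuotientGroup.induction_on with
    | _ k =>
    induction p using QuotientGroup.induction_on with
    | _ g =>
    induction r using QuotientGroup.induction_on with
    | _ h =>
      rw [← QuotientGroup.mk_inv, ← QuotientGroup.mk_mul, ← QuotientGroup.mk_mul,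
        ← QuotientGroup.mk_mul, ← QuotientGroup.mk_mul]
      refine eps_eq h2 ?_
      show (((k : GL I8 F) * g * (k : GL I8 F)⁻¹) * ((k : GL I8 F) * h * (k : GL I8 F)⁻¹) :
          GL I8 F).val = _ • (((k : GL I8 F) * h * (k : GL I8 F)⁻¹) *
            ((k : GL I8 F) * g * (k : GL I8 F)⁻¹) : GL I8 F).val
      rw [show ((k : GL I8 F) * g * (k : GL I8 F)⁻¹) * ((k : GL I8 F) * h * (k : GL I8 F)⁻¹) =
          k * (g * h) * (k : GL I8 F)⁻¹ by group,
        show ((k : GL I8 F) * h * (k : GL I8 F)⁻¹) * ((k : GL I8 F) * g * (k : GL I8 F)⁻¹) =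
          k * (h * g) * (k : GL I8 F)⁻¹ by group]
      simp only [Units.val_mul]
      rw [eps_spec h2 hM hpr, mul_smul_comm, smul_mul_assoc]
  ε_mul := by
    intro p p' r h1 h1'
    induction p using QuotientGroup.induction_on with
    | _ g =>
    induction p' using QuotientGroup.induction_on with
    | _ g' =>
    induction r using QuotientGroup.induction_on with
    | _ h =>
      rw [← QuotientGroup.mk_mul]
      refine eps_eq h2 ?_
      show ((g : GL I8 F) : 𝕄) * ((g' : GL I8 F) : 𝕄) * ((h : GL I8 F) : 𝕄) =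
        _ • (((h : GL I8 F) : 𝕄) * (((g : GL I8 F) : 𝕄) * ((g' : GL I8 F) : 𝕄)))
      rw [mul_assoc, eps_spec h2 hM h1', mul_smul_comm, ← mul_assoc, eps_spec h2 hM h1,
        smul_mul_assoc, smul_smul, sgn_add, mul_assoc, mul_comm (sgn F (eps _ _))]
  ε_fix := by
    intro n hn hn2 v
    induction n using QuotientGroup.induction_on with
    | _ g =>
      have hg := (S.mem_NQ hM).1 hn
      rw [S.act_mk hM hg v]
      obtain ⟨c, hc⟩ := exists_smul_of_mk_eq M (g := g * g) (h := 1) (by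
        rw [QuotientGroup.mk_mul]; exact hn2)
      have hcm : ((g : GL I8 F) : 𝕄) * ((g : GL I8 F) : 𝕄) = c • (1 : 𝕄) := hc
      set w := S.sP (g : GL I8 F) v with hw
      set d := S.cP (g : GL I8 F) v
      have hd : ((g : GL I8 F) : 𝕄) * S.P v = d • (S.P w * ((g : GL I8 F) : 𝕄)) := S.act_spec hg v
      have hgw : d • (((g : GL I8 F) : 𝕄) * S.P w) = S.P v * ((g : GL I8 F) : 𝕄) := by
        apply (Units.mul_left_inj (g : GL I8 F)).1
        rw [smul_mul_assoc, mul_assoc, ← mul_smul_comm, ← hd, ← mul_assoc, hcm, smul_mul_assoc,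
          one_mul, mul_assoc, hcm, mul_smul_comm, mul_one]
      obtain ⟨k, -, hk⟩ := S.P_add_coeff v w
      refine eps_eq h2 ?_
      show ((g : GL I8 F) : 𝕄) * S.P (v + w) =
        sgn F (S.B v w) • (S.P (v + w) * ((g : GL I8 F) : 𝕄))
      calc ((g : GL I8 F) : 𝕄) * S.P (v + w)
          = k • (((g : GL I8 F) : 𝕄) * S.P v * S.P w) := by rw [hk, mul_smul_comm, mul_assoc]
        _ = k • (S.P w * (d • (((g : GL I8 F) : 𝕄) * S.P w))) := by
          rw [hd, smul_mul_assoc, mul_assoc, mul_smul_comm]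
        _ = k • ((S.P w * S.P v) * ((g : GL I8 F) : 𝕄)) := by rw [hgw, mul_assoc]
        _ = _ := by
          rw [S.comm w v, S.sk w v, hk, smul_mul_assoc, smul_mul_assoc, smul_comm]

include hNM in
/-- The local-to-global statement. -/
theorem le_N_of_local [Finite F] (h2 : (2 : F) ≠ 0) (hM : M ≤ Cfsg.spGL 4 F)
    (htr : ∀ a b, a ≠ 0 → b ≠ 0 → S.q a = 0 → S.q b = 0 →
      ∃ g ∈ S.N, ∃ c : F, (g : 𝕄) * S.P a = c • (S.P b * (g : 𝕄)))
    (hloc : ∀ a, a ≠ 0 → S.q a = 0 → ∀ g ∈ M, ∀ c : F,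
      (g : 𝕄) * S.P a = c • (S.P a * (g : 𝕄)) → g ∈ S.N) : M ≤ S.N := by
  have htop : S.NQ M = ⊤ := (S.data hNM h2 hM htr).eq_top fun a ha hqa q hq => by
    induction q using QuotientGroup.induction_on with
    | _ g =>
      obtain ⟨c, hc⟩ := exists_smul_of_mk_eq M (g := g * S.px hNM a) (h := S.px hNM a * g) hq
      exact (S.mem_NQ hM).2 (hloc a ha hqa g g.2 c hc)
  intro g hg
  exact (S.mem_NQ hM (g := (⟨g, hg⟩ : M))).1 (htop ▸ Subgroup.mem_top _)

end Sys

end CfsgLib.Geometric.PauliMinus
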