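import Cfsg.Agent.Lib.Geometric.PauliMinus.LocalSmall
import Cfsg.Agent.Lib.Geometric.PauliMinus.Model
import Cfsg.Agent.Lib.Geometric.PauliMinus.Big

/-!
The overgroups in `Sp_8` of the isometries permuting a system of minus type.
-/

set_option autoImplicit false
set_option linter.unusedSectionVars false

namespace CfsgLib.Geometric.PauliMinus

open CfsgLib.Geometric.PauliMax (V6)

variable {F : Type*} [Field F] [Fintype F]

/-- An overgroup is small at every label or everything, and small forces the normaliser. -/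
theorem Sys.dichotomy (S : Sys F) (h2 : (2 : F) ≠ 0) {p : ℕ} (hp : p.Prime)
    (hcard : Fintype.card F = p) {M : Subgroup (GL I8 F)} (hNM : S.N ≤ M)
    (hM : M ≤ Cfsg.spGL 4 F) : M ≤ S.N ∨ M = Cfsg.spGL 4 F := by
  by_cases hne : M = Cfsg.spGL 4 F
  · exact Or.inr hne
  have hsm : AllSmall S M := fun k u sp => sp.small_of_ne h2 hp hcard hNM hM hne
  exact Or.inl (S.le_N_of_local hNM h2 hM
    (fun a b ha hb hqa hqb => S.singular_transitive h2 ha hb hqa hqb)
    fun a ha hqa g hg c hc => S.local_of_small h2 hNM hM hsm ha hqa hg hc)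

theorem Sys.exists_singular (S : Sys F) : ∃ a, a ≠ 0 ∧ S.q a = 0 := by
  set v : V6 := Pi.single 0 1 with hv
  have hv0 : v ≠ 0 := by simp [hv]
  by_cases hqv : S.q v = 0
  · exact ⟨v, hv0, hqv⟩
  obtain ⟨w, hw, hwv⟩ : ∃ w ∈ LinearMap.ker (S.B v), w ∉ Submodule.span (ZMod 2) {v} := by
    by_contra! h
    have h1 := Submodule.finrank_mono
      (show LinearMap.ker (S.B v) ≤ Submodule.span (ZMod 2) {v} from h)
    have h2 := LinearMap.finrank_range_add_finrank_ker (S.B v)
    have h3 : Module.finrank (ZMod 2) (LinearMap.range (S.B v)) ≤ 1 :=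
      (Submodule.finrank_le _).trans_eq (Module.finrank_self _)
    rw [finrank_span_singleton hv0] at h1
    rw [Module.finrank_fin_fun] at h2
    omega
  have hw0 : w ≠ 0 := fun h => hwv (h ▸ Submodule.zero_mem _)
  by_cases hqw : S.q w = 0
  · exact ⟨w, hw0, hqw⟩
  refine ⟨v + w, fun h => hwv ?_, ?_⟩
  · rw [← (PauliMax.add_eq_zero_iff' _ _).1 h]
    exact Submodule.mem_span_singleton_self v
  · have dich : ∀ c : ZMod 2, c ≠ 0 → c = 1 := by decide
    rw [S.q_add, dich _ hqv, dich _ hqw, LinearMap.mem_ker.1 hw]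
    decide

/-- The normaliser is proper. -/
theorem Sys.N_ne_sp (S : Sys F) (h2 : (2 : F) ≠ 0) {p : ℕ} (hp : p.Prime)
    (hcard : Fintype.card F = p) : S.N ≠ Cfsg.spGL 4 F := by
  obtain ⟨a, ha, hqa⟩ := S.exists_singular
  obtain ⟨u, hqu, hau⟩ := S.exists_singular_pair ha hqa
  obtain ⟨sp⟩ := Split.exists_split S h2 hqa hqu hau
  obtain ⟨g, hg, hgN⟩ := sp.exists_not_mem h2 hp hcard
  exact fun h => hgN (h ▸ hg)

end CfsgLib.Geometric.PauliMinus
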