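import Cfsg.Prelude.Def_GeometricClasses
import Cfsg.Agent.Lib.Geometric.PauliMax.Data
import Cfsg.Agent.Lib.Geometric.PauliMax.Action

/-!
A system of matrices `P v` in `Sp_8`, indexed by a six-dimensional quadratic space of minus type over
`𝔽₂`, with `P v * P v = ± 1` according to the form and commuting up to the sign of its polar form; the
subgroup of isometries permuting them up to scalars.
-/

set_option autoImplicit false
set_option linter.unusedSectionVars false

namespace CfsgLib.Geometric.PauliMinus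

open Cfsg.Geo
open CfsgLib.Geometric.PauliMax (V6 sgn sgn_zero sgn_one sgn_cases sgn_sq sgn_inj sgn_add sgn_ne_zero)

/-- The index type of eight-dimensional space. -/
abbrev I8 := Fin 4 ⊕ Fin 4

/-- A system of minus type. -/
structure Sys (F : Type*) [Field F] where
  P : V6 → Matrix I8 I8 F
  q : V6 → ZMod 2
  B : V6 →ₗ[ZMod 2] V6 →ₗ[ZMod 2] ZMod 2
  q_add : ∀ v w, q (v + w) = q v + q w + B v w
  nondeg : ∀ v, (∀ w, B v w = 0) → v = 0
  minus : ∀ a b c, q a = 0 → q b = 0 → q c = 0 → B a b = 0 → B a c = 0 → B b c = 0 →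
    a ≠ 0 → b ≠ 0 → a ≠ b → c = 0 ∨ c = a ∨ c = b ∨ c = a + b
  zero : P 0 = 1
  sq : ∀ v, P v * P v = sgn F (q v) • 1
  comm : ∀ v w, P v * P w = sgn F (B v w) • (P w * P v)
  add : ∀ v w, ∃ c : F, P (v + w) = c • (P v * P w)
  li : LinearIndependent F P
  isom : ∀ v x y, Cfsg.sympForm 4 F (Matrix.mulVec (P v) x) (Matrix.mulVec (P v) y) =
    Cfsg.sympForm 4 F x y

variable {F : Type*} [Field F]

local notation "𝕄" => Matrix I8 I8 F

namespace Sys

variable (S : Sys F)

theorem span_eq_top : Submodule.span F (Set.range S.P) = ⊤ :=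
  S.li.span_eq_top_of_card_eq_finrank' (by simp [Module.finrank_matrix])

theorem P_ne_zero (v : V6) : S.P v ≠ 0 := S.li.ne_zero v

/-- An element of the system in the general linear group. -/
def gl (v : V6) : GL I8 F where
  val := S.P v
  inv := sgn F (S.q v) • S.P v
  val_inv := by rw [mul_smul_comm, S.sq, smul_smul, sgn_sq, one_smul]
  inv_val := by rw [smul_mul_assoc, S.sq, smul_smul, sgn_sq, one_smul]

@[simp] theorem coe_gl (v : V6) : ((S.gl v : GL I8 F) : 𝕄) = S.P v := rfl

theorem gl_mem_sp (v : V6) : S.gl v ∈ Cfsg.spGL 4 F := S.isom v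

theorem eq_of_smul_P {c : F} {v w : V6} (h : S.P v = c • S.P w) : v = w :=
  S.li.eq_of_smul_apply_eq_smul_apply 1 c v w one_ne_zero (by rw [one_smul]; exact h)

theorem smul_P_inj {c d : F} (w : V6) (h : c • S.P w = d • S.P w) : c = d :=
  smul_left_injective F (S.P_ne_zero w) h

theorem P_add_coeff (v w : V6) : ∃ c : F, c ≠ 0 ∧ S.P (v + w) = c • (S.P v * S.P w) := by
  obtain ⟨c, hc⟩ := S.add v w
  exact ⟨c, fun h => S.P_ne_zero _ (by rw [hc, h, zero_smul]), hc⟩

/-- `g` sends every label to a label, up to scalars. -/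
def Perm (g : 𝕄) : Prop := ∀ v, ∃ (w : V6) (c : F), g * S.P v = c • (S.P w * g)

theorem Perm.coeff_ne_zero {g : GL I8 F} {v w : V6} {c : F}
    (h : (g : 𝕄) * S.P v = c • (S.P w * (g : 𝕄))) : c ≠ 0 := by
  rintro rfl
  rw [zero_smul] at h
  exact S.P_ne_zero v ((Units.mul_right_inj g).1 (h.trans (mul_zero _).symm))

theorem perm_inv {g : GL I8 F} (h : S.Perm (g : 𝕄)) : S.Perm ((g⁻¹ : GL I8 F) : 𝕄) := by
  choose f c hc using h
  have hc0 : ∀ v, c v ≠ 0 := fun v => Perm.coeff_ne_zero S (hc v)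
  have hinj : Function.Injective f := by
    intro v v' hvv
    have h1 : (g : 𝕄) * S.P v = (g : 𝕄) * ((c v / c v') • S.P v') := by
      rw [mul_smul_comm, hc v', smul_smul, div_mul_cancel₀ _ (hc0 v'), hc v, hvv]
    exact S.eq_of_smul_P ((Units.mul_right_inj g).1 h1)
  intro v
  obtain ⟨u, rfl⟩ := (Finite.injective_iff_surjective.1 hinj) v
  refine ⟨u, (c u)⁻¹, ?_⟩
  have h1 : ((g⁻¹ : GL I8 F) : 𝕄) * ((g : 𝕄) * S.P u) * ((g⁻¹ : GL I8 F) : 𝕄) =
      S.P u * ((g⁻¹ : GL I8 F) : 𝕄) := by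
    rw [← mul_assoc, Units.inv_mul, one_mul]
  rw [hc u, mul_smul_comm, smul_mul_assoc, mul_assoc, mul_assoc, Units.mul_inv, mul_one] at h1
  rw [← h1, smul_smul, inv_mul_cancel₀ (hc0 u), one_smul]

/-- The isometries permuting the system. -/
def N : Subgroup (GL I8 F) where
  carrier := {g | g ∈ Cfsg.spGL 4 F ∧ S.Perm (g : 𝕄)}
  one_mem' := ⟨one_mem _, fun v => ⟨v, 1, by simp⟩⟩
  mul_mem' := by
    intro g h hg hh
    refine ⟨mul_mem hg.1 hh.1, fun v => ?_⟩
    obtain ⟨w, c, hw⟩ := hh.2 v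
    obtain ⟨z, d, hz⟩ := hg.2 w
    refine ⟨z, c * d, ?_⟩
    rw [Units.val_mul, mul_assoc, hw, mul_smul_comm, ← mul_assoc, hz, smul_mul_assoc, smul_smul,
      mul_assoc]
  inv_mem' := fun {g} hg => ⟨inv_mem hg.1, S.perm_inv hg.2⟩

theorem mem_N {g : GL I8 F} : g ∈ S.N ↔ g ∈ Cfsg.spGL 4 F ∧ S.Perm (g : 𝕄) := Iff.rfl

theorem N_le : S.N ≤ Cfsg.spGL 4 F := fun _ h => h.1

theorem gl_mem_N (v : V6) : S.gl v ∈ S.N := ⟨S.gl_mem_sp v, fun w => ⟨w, _, S.comm v w⟩⟩

/-- It suffices to treat a set of labels spanning the space. -/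
theorem perm_of_closure {g : GL I8 F} {s : Set V6} (hs : Submodule.span (ZMod 2) s = ⊤)
    (h : ∀ v ∈ s, ∃ (w : V6) (c : F), (g : 𝕄) * S.P v = c • (S.P w * (g : 𝕄))) : S.Perm (g : 𝕄) := by
  intro v
  have hv : v ∈ Submodule.span (ZMod 2) s := hs ▸ Submodule.mem_top
  induction hv using Submodule.span_induction with
  | mem x hx => exact h x hx
  | zero => exact ⟨0, 1, by simp [S.zero]⟩
  | add x y _ _ hx hy =>
    obtain ⟨x', cx, hx⟩ := hx
    obtain ⟨y', cy, hy⟩ := hy
    obtain ⟨k, -, hk⟩ := S.P_add_coeff x y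
    obtain ⟨l, hl0, hl⟩ := S.P_add_coeff x' y'
    refine ⟨x' + y', k * (cx * cy) * l⁻¹, ?_⟩
    rw [hk, mul_smul_comm, ← mul_assoc, hx, smul_mul_assoc, mul_assoc, hy, mul_smul_comm,
      smul_smul, smul_smul, hl, smul_mul_assoc, smul_smul, ← mul_assoc (S.P x'),
      inv_mul_cancel_right₀ hl0, mul_assoc k]
  | smul a x _ hx =>
    have dich : a = 0 ∨ a = 1 := by revert a; decide
    rcases dich with rfl | rfl
    · exact ⟨0, 1, by simp [S.zero]⟩
    · rwa [one_smul]

/-- A matrix commuting with the system on a spanning set is scalar. -/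
theorem eq_scalar_of_commute {X : 𝕄} {s : Set V6} (hs : Submodule.span (ZMod 2) s = ⊤)
    (h : ∀ v ∈ s, X * S.P v = S.P v * X) : ∃ c : F, X = c • (1 : 𝕄) := by
  have hall0 : ∀ v, X * S.P v = S.P v * X := by
    intro v
    have hv : v ∈ Submodule.span (ZMod 2) s := hs ▸ Submodule.mem_top
    induction hv using Submodule.span_induction with
    | mem x hx => exact h x hx
    | zero => simp [S.zero]
    | add x y _ _ hx hy =>
      obtain ⟨k, -, hk⟩ := S.P_add_coeff x y
      rw [hk, mul_smul_comm, smul_mul_assoc, ← mul_assoc, hx, mul_assoc, hy, mul_assoc]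
    | smul a x _ hx =>
      have dich : a = 0 ∨ a = 1 := by revert a; decide
      rcases dich with rfl | rfl
      · simp [S.zero]
      · rwa [one_smul]
  have hall : ∀ Y : 𝕄, X * Y = Y * X := by
    intro Y
    have hY : Y ∈ Submodule.span F (Set.range S.P) := S.span_eq_top ▸ Submodule.mem_top
    induction hY using Submodule.span_induction with
    | mem y hy => obtain ⟨v, rfl⟩ := hy; exact hall0 v
    | zero => simp
    | add a b _ _ ha hb => rw [mul_add, add_mul, ha, hb]
    | smul c a _ ha => rw [mul_smul_comm, smul_mul_assoc, ha]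
  obtain ⟨c, hc⟩ := Matrix.mem_range_scalar_of_commute_single (M := X) fun i j _ => (hall _).symm
  exact ⟨c, by rw [← hc, Matrix.smul_one_eq_diagonal]; rfl⟩

theorem sk (v w : V6) : S.B v w = S.B w v := by
  have h1 := S.q_add v w
  have h2 := S.q_add w v
  rw [add_comm w v, h1, add_comm (S.q w)] at h2
  exact add_left_cancel h2

theorem q_zero : S.q 0 = 0 := by
  have h := S.q_add 0 0
  simp only [add_zero, map_zero] at h
  exact add_eq_left.1 h.symm

theorem B_self (v : V6) : S.B v v = 0 := by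
  have h := S.q_add v v
  rw [PauliMax.two_torsion, S.q_zero, CharTwo.add_self_eq_zero, zero_add] at h
  exact h.symm

/-- Elements of the system with singular label are involutions. -/
theorem sq_of_singular {v : V6} (hv : S.q v = 0) : S.P v * S.P v = 1 := by
  rw [S.sq, hv, sgn_zero, one_smul]

theorem anti_of_B {v w : V6} (h : S.B v w = 1) : S.P v * S.P w = -(S.P w * S.P v) := by
  rw [S.comm, h, sgn_one, neg_one_smul]

theorem commute_of_B {v w : V6} (h : S.B v w = 0) : S.P v * S.P w = S.P w * S.P v := by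
  rw [S.comm, h, sgn_zero, one_smul]

end Sys

end CfsgLib.Geometric.PauliMinus
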