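import Cfsg.Agent.Lib.Geometric.PauliMinus.Sys

/-!
The action of the isometries permuting a system of minus type on its labels, with signs.
-/

set_option autoImplicit false
set_option linter.unusedSectionVars false

namespace CfsgLib.Geometric.PauliMinus

open Cfsg.Geo
open CfsgLib.Geometric.PauliMax (V6 sgn sgn_zero sgn_one sgn_cases sgn_sq sgn_inj sgn_add sgn_ne_zero)

variable {F : Type*} [Field F]

local notation "𝕄" => Matrix I8 I8 F

theorem isom_of_mem {g : GL I8 F} (hg : g ∈ Cfsg.spGL 4 F) (x y : I8 → F) :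
    Cfsg.sympForm 4 F (Matrix.mulVec (g : 𝕄) x) (Matrix.mulVec (g : 𝕄) y) = Cfsg.sympForm 4 F x y :=
  hg x y

/-- The scalar relating two isometries squares to one. -/
theorem coeff_sq {g h : GL I8 F} (hg : g ∈ Cfsg.spGL 4 F) (hh : h ∈ Cfsg.spGL 4 F) {c : F}
    (e : (g : 𝕄) = c • (h : 𝕄)) : c * c = 1 := by
  obtain ⟨x, y, hxy⟩ : ∃ x y, Cfsg.sympForm 4 F x y ≠ 0 :=
    ⟨Pi.single (Sum.inl 0) 1, Pi.single (Sum.inr 0) 1, by simp [Cfsg.sympForm, Matrix.J]⟩
  have h1 := isom_of_mem hg x y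
  rw [e, Matrix.smul_mulVec, Matrix.smul_mulVec] at h1
  have h2 := isom_of_mem hh x y
  have h3 : ∀ u v : I8 → F, Cfsg.sympForm 4 F (c • u) (c • v) = c * c * Cfsg.sympForm 4 F u v :=
    fun u v => by simp [Cfsg.sympForm, Matrix.mulVec_smul, mul_assoc]
  rw [h3, h2] at h1
  exact mul_right_cancel₀ hxy (h1.trans (one_mul _).symm)

namespace Sys

variable (S : Sys F)

/-- The coefficient of an isometry sending one label to another. -/
theorem coeff_label {g : GL I8 F} (hg : g ∈ Cfsg.spGL 4 F) {v w : V6} {c : F}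
    (h : (g : 𝕄) * S.P v = c • (S.P w * (g : 𝕄))) : c * c = 1 :=
  coeff_sq (g := g * S.gl v) (h := S.gl w * g) (mul_mem hg (S.gl_mem_sp v))
    (mul_mem (S.gl_mem_sp w) hg) h

/-- Isometries preserve the quadratic form. -/
theorem q_eq_of_label (h2 : (2 : F) ≠ 0) {g : GL I8 F} (hg : g ∈ Cfsg.spGL 4 F) {v w : V6} {c : F}
    (h : (g : 𝕄) * S.P v = c • (S.P w * (g : 𝕄))) : S.q v = S.q w := by
  refine sgn_inj h2 (smul_left_injective F (Units.ne_zero g) ?_)
  show sgn F (S.q v) • (g : 𝕄) = sgn F (S.q w) • (g : 𝕄)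
  calc sgn F (S.q v) • (g : 𝕄) = (g : 𝕄) * S.P v * S.P v := by
        rw [mul_assoc, S.sq, mul_smul_comm, mul_one]
    _ = (c * c) • (S.P w * S.P w * (g : 𝕄)) := by
        rw [h, smul_mul_assoc, mul_assoc, h, mul_smul_comm, smul_smul, ← mul_assoc]
    _ = _ := by rw [S.coeff_label hg h, one_smul, S.sq, smul_mul_assoc, one_mul]

/-- The image of a label. -/
noncomputable def sP (g : GL I8 F) (v : V6) : V6 :=
  Classical.epsilon fun w => ∃ c : F, (g : 𝕄) * S.P v = c • (S.P w * (g : 𝕄))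

/-- The coefficient. -/
noncomputable def cP (g : GL I8 F) (v : V6) : F :=
  Classical.epsilon fun c => (g : 𝕄) * S.P v = c • (S.P (S.sP g v) * (g : 𝕄))

variable {g h : GL I8 F}

theorem act_spec (hg : g ∈ S.N) (v : V6) :
    (g : 𝕄) * S.P v = S.cP g v • (S.P (S.sP g v) * (g : 𝕄)) :=
  Classical.epsilon_spec (Classical.epsilon_spec
    (p := fun w => ∃ c : F, (g : 𝕄) * S.P v = c • (S.P w * (g : 𝕄))) (hg.2 v))

theorem act_unique (hg : g ∈ S.N) {v w : V6} {c : F}
    (h : (g : 𝕄) * S.P v = c • (S.P w * (g : 𝕄))) : S.sP g v = w ∧ S.cP g v = c := by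
  have h1 := (S.act_spec hg v).symm.trans h
  rw [← smul_mul_assoc, ← smul_mul_assoc, Units.mul_left_inj] at h1
  have hc := Perm.coeff_ne_zero S (S.act_spec hg v)
  have hw : S.sP g v = w := S.eq_of_smul_P (c := c / S.cP g v) (by
    rw [div_eq_inv_mul, ← smul_smul, ← h1, smul_smul, inv_mul_cancel₀ hc, one_smul])
  exact ⟨hw, S.smul_P_inj w (by rw [hw] at h1; exact h1)⟩

theorem act_congr (hg : g ∈ S.N) (hh : h ∈ S.N) {a : F} (hgh : (g : 𝕄) = a • (h : 𝕄)) (v : V6) :
    S.sP g v = S.sP h v :=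
  (S.act_unique hg (c := S.cP h v)
    (by rw [hgh, smul_mul_assoc, S.act_spec hh, mul_smul_comm, smul_comm])).1

theorem B_surj (f : V6 →ₗ[ZMod 2] ZMod 2) : ∃ u, ∀ w, S.B u w = f w := by
  have hi : Function.Injective S.B := by
    rw [← LinearMap.ker_eq_bot, Submodule.eq_bot_iff]
    intro v hv
    exact S.nondeg v fun w => by rw [LinearMap.mem_ker.1 hv]; rfl
  obtain ⟨u, hu⟩ := (LinearMap.injective_iff_surjective_of_finrank_eq_finrank
    (Module.finrank_linearMap_self (ZMod 2) (ZMod 2) V6).symm).1 hi f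
  exact ⟨u, fun w => LinearMap.congr_fun hu w⟩

/-- An element fixing every label is a multiple of an element of the system. -/
theorem exists_of_fixed (h2 : (2 : F) ≠ 0) (hg : g ∈ S.N) (hfix : ∀ v, S.sP g v = v) :
    ∃ (u : V6) (c : F), (g : 𝕄) = c • S.P u := by
  classical
  let f : V6 → ZMod 2 := fun v => if S.cP g v = 1 then 0 else 1
  have hf : ∀ v, sgn F (f v) = S.cP g v := by
    intro v
    simp only [f]
    split
    · next h => rw [sgn_zero, h]
    · next h =>
      rw [sgn_one]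
      exact ((mul_self_eq_one_iff.1 (S.coeff_label hg.1 (S.act_spec hg v))).resolve_left h).symm
  have hadd : ∀ v w, f (v + w) = f v + f w := by
    intro v w
    refine sgn_inj h2 ?_
    rw [sgn_add, hf, hf, hf]
    obtain ⟨k, -, hk⟩ := S.P_add_coeff v w
    refine (S.act_unique hg (w := v + w) ?_).2
    rw [hk, mul_smul_comm, ← mul_assoc, S.act_spec hg, smul_mul_assoc, mul_assoc, S.act_spec hg,
      mul_smul_comm, smul_smul, smul_smul, hfix, hfix, smul_mul_assoc, smul_smul, mul_assoc (S.P v)]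
    congr 1
    ring
  obtain ⟨u, hu⟩ := S.B_surj (AddMonoidHom.toZModLinearMap 2 (AddMonoidHom.mk' f hadd))
  obtain ⟨c, hc⟩ := S.eq_scalar_of_commute (s := Set.univ) Submodule.span_univ
    (X := (g : 𝕄) * S.P u) fun v _ => by
    have huv : sgn F (S.B u v) = S.cP g v := by rw [hu]; exact hf v
    rw [mul_assoc, S.comm u v, mul_smul_comm, ← mul_assoc, S.act_spec hg, smul_mul_assoc, smul_smul,
      huv, S.coeff_label hg.1 (S.act_spec hg v), one_smul, hfix, mul_assoc]
  refine ⟨u, sgn F (S.q u) * c, ?_⟩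
  have := congrArg (fun Y : 𝕄 => sgn F (S.q u) • (Y * S.P u)) hc
  simpa [mul_assoc, S.sq, smul_mul_assoc, smul_smul, sgn_sq] using this

end Sys

end CfsgLib.Geometric.PauliMinus
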