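import Cfsg.Agent.Lib.Geometric.PauliMax.Data

/-!
A finite group with a subgroup `N` normalising an elementary abelian subgroup of order `2 ^ 6` which
carries a quadratic form of minus type: the basic facts.
-/

set_option autoImplicit false

namespace CfsgLib.Geometric.PauliMinus

open Module
open CfsgLib.Geometric.PauliMax (V6 two_torsion neg_eq_self add_eq_zero_iff')

theorem zmod_two_cases (c : ZMod 2) : c = 0 ∨ c = 1 := by revert c; decide

theorem zmod_two_one {c : ZMod 2} (h : c ≠ 0) : c = 1 := (zmod_two_cases c).resolve_left h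

/-- The data: `x` embeds the quadratic space into `N`, `s` gives the action of `N`, `ε` is the sign
of the commutator of commuting elements. -/
structure Data (G : Type*) [Group G] (N : Subgroup G) where
  x : V6 → G
  q : V6 → ZMod 2
  B : V6 →ₗ[ZMod 2] V6 →ₗ[ZMod 2] ZMod 2
  s : G → V6 → V6
  ε : G → G → ZMod 2
  x_add : ∀ a b, x (a + b) = x a * x b
  x_inj : Function.Injective x
  x_mem : ∀ a, x a ∈ N
  conj : ∀ n ∈ N, ∀ v, n * x v * n⁻¹ = x (s n v)
  q_add : ∀ v w, q (v + w) = q v + q w + B v w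
  nondeg : ∀ v, (∀ w, B v w = 0) → v = 0
  minus : ∀ a b c, q a = 0 → q b = 0 → q c = 0 → B a b = 0 → B a c = 0 → B b c = 0 →
    a ≠ 0 → b ≠ 0 → a ≠ b → c = 0 ∨ c = a ∨ c = b ∨ c = a + b
  ker : ∀ n ∈ N, (∀ v, s n v = v) → ∃ a, n = x a
  trans : ∀ a b, a ≠ 0 → b ≠ 0 → q a = 0 → q b = 0 → ∃ n ∈ N, s n a = b
  q_conj : ∀ (g : G) (a b : V6), g * x a * g⁻¹ = x b → q a = q b
  ε_x : ∀ a b, ε (x a) (x b) = B a b
  ε_conj : ∀ g p r, Commute p r → ε (g * p * g⁻¹) (g * r * g⁻¹) = ε p r
  ε_mul : ∀ p p' r, Commute p r → Commute p' r → ε (p * p') r = ε p r + ε p' r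
  ε_fix : ∀ n ∈ N, n * n = 1 → ∀ v, ε n (x (v + s n v)) = B v (s n v)

namespace Data

variable {G : Type*} [Group G] {N : Subgroup G} (D : Data G N)

theorem x_zero : D.x 0 = 1 := by
  have h := D.x_add 0 0
  rw [add_zero] at h
  exact mul_eq_left.1 h.symm

theorem x_eq_one {a : V6} : D.x a = 1 ↔ a = 0 :=
  ⟨fun h => D.x_inj (h.trans D.x_zero.symm), fun h => h ▸ D.x_zero⟩

theorem x_mul_self (a : V6) : D.x a * D.x a = 1 := by
  rw [← D.x_add, two_torsion, D.x_zero]

theorem x_inv (a : V6) : (D.x a)⁻¹ = D.x a := inv_eq_of_mul_eq_one_right (D.x_mul_self a)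

theorem x_commute (a b : V6) : Commute (D.x a) (D.x b) := by
  rw [Commute, SemiconjBy, ← D.x_add, ← D.x_add, add_comm]

theorem orderOf_x {a : V6} (ha : a ≠ 0) : orderOf (D.x a) = 2 :=
  orderOf_eq_prime (by rw [pow_two, D.x_mul_self]) fun h => ha (D.x_eq_one.1 h)

theorem s_one (v : V6) : D.s 1 v = v :=
  D.x_inj (by rw [← D.conj 1 (one_mem N)]; group)

theorem s_mul {n m : G} (hn : n ∈ N) (hm : m ∈ N) (v : V6) :
    D.s (n * m) v = D.s n (D.s m v) :=
  D.x_inj (by rw [← D.conj _ (mul_mem hn hm), ← D.conj n hn, ← D.conj m hm]; group)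

theorem s_add {n : G} (hn : n ∈ N) (v w : V6) : D.s n (v + w) = D.s n v + D.s n w :=
  D.x_inj (by rw [D.x_add, ← D.conj n hn, ← D.conj n hn, ← D.conj n hn, D.x_add]; group)

theorem s_x (a v : V6) : D.s (D.x a) v = v :=
  D.x_inj (by rw [← D.conj _ (D.x_mem a), (D.x_commute a v).eq, mul_inv_cancel_right])

theorem commute_x_iff {n : G} (hn : n ∈ N) {v : V6} : Commute n (D.x v) ↔ D.s n v = v := by
  constructor
  · intro h
    exact D.x_inj (by rw [← D.conj n hn, h.eq, mul_inv_cancel_right])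
  · intro h
    have := D.conj n hn v
    rw [h, mul_inv_eq_iff_eq_mul] at this
    exact this

theorem inv_s {n : G} (hn : n ∈ N) (h2 : n * n = 1) (v : V6) : D.s n (D.s n v) = v := by
  rw [← D.s_mul hn hn, h2, D.s_one]

theorem sk (v w : V6) : D.B v w = D.B w v := by
  have h1 := D.q_add v w
  have h2 := D.q_add w v
  rw [add_comm w v, h1, add_comm (D.q w)] at h2
  exact add_left_cancel h2

theorem q_zero : D.q 0 = 0 := by
  have h := D.q_add 0 0
  simp only [add_zero, map_zero] at h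
  exact add_eq_left.1 h.symm

theorem B_self (v : V6) : D.B v v = 0 := by
  have h := D.q_add v v
  rw [two_torsion, D.q_zero, CharTwo.add_self_eq_zero, zero_add] at h
  exact h.symm

theorem q_s {n : G} (hn : n ∈ N) (v : V6) : D.q (D.s n v) = D.q v :=
  (D.q_conj n v _ (D.conj n hn v)).symm

theorem B_s {n : G} (hn : n ∈ N) (v w : V6) : D.B (D.s n v) (D.s n w) = D.B v w := by
  have h := D.q_add (D.s n v) (D.s n w)
  rw [← D.s_add hn, D.q_s hn, D.q_s hn, D.q_s hn, D.q_add] at h
  exact (add_left_cancel h).symm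

/-- The displacement `v ↦ v + s v`. -/
def η {n : G} (hn : n ∈ N) : V6 →ₗ[ZMod 2] V6 :=
  AddMonoidHom.toZModLinearMap 2 (AddMonoidHom.mk' (fun v => v + D.s n v) fun v w => by
    rw [D.s_add hn]; abel)

@[simp] theorem η_apply {n : G} (hn : n ∈ N) (v : V6) : D.η hn v = v + D.s n v := rfl

/-- Fixed space. -/
def fix {n : G} (hn : n ∈ N) : Submodule (ZMod 2) V6 := LinearMap.ker (D.η hn)

theorem mem_fix {n : G} (hn : n ∈ N) {v : V6} : v ∈ D.fix hn ↔ D.s n v = v := by
  rw [fix, LinearMap.mem_ker, η_apply, add_eq_zero_iff']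
  exact eq_comm

theorem B_nondegenerate :
    LinearMap.BilinForm.Nondegenerate (D.B : LinearMap.BilinForm (ZMod 2) V6) :=
  ⟨fun v h => D.nondeg v h, fun v h => D.nondeg v fun w => (D.sk v w).trans (h w)⟩

/-- Orthogonal space. -/
abbrev perp (W : Submodule (ZMod 2) V6) : Submodule (ZMod 2) V6 :=
  LinearMap.BilinForm.orthogonal (D.B : LinearMap.BilinForm (ZMod 2) V6) W

theorem mem_perp {W : Submodule (ZMod 2) V6} {v : V6} :
    v ∈ D.perp W ↔ ∀ w ∈ W, D.B w v = 0 := Iff.rfl

theorem finrank_perp (W : Submodule (ZMod 2) V6) :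
    finrank (ZMod 2) (D.perp W) = 6 - finrank (ZMod 2) W := by
  rw [LinearMap.BilinForm.finrank_orthogonal D.B_nondegenerate, Module.finrank_fin_fun]

theorem perp_perp (W : Submodule (ZMod 2) V6) : D.perp (D.perp W) = W :=
  LinearMap.BilinForm.orthogonal_orthogonal D.B_nondegenerate
    (fun v w h => (D.sk w v).trans h) W

theorem perp_le {U W : Submodule (ZMod 2) V6} (h : U ≤ W) : D.perp W ≤ D.perp U :=
  fun _ hv w hw => hv w (h hw)

theorem η_adj {n : G} (hn : n ∈ N) (h2 : n * n = 1) (v w : V6) :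
    D.B (D.η hn v) w = D.B v (D.η hn w) := by
  have e : D.B (D.s n v) w = D.B v (D.s n w) := by
    conv_lhs => rw [← D.B_s hn (D.s n v) w, D.inv_s hn h2]
  simp only [η_apply, map_add, LinearMap.add_apply, e]

theorem range_le_fix {n : G} (hn : n ∈ N) (h2 : n * n = 1) :
    LinearMap.range (D.η hn) ≤ D.fix hn := by
  rintro _ ⟨v, rfl⟩
  rw [mem_fix, η_apply, D.s_add hn, D.inv_s hn h2, add_comm]

theorem range_eq_perp_fix {n : G} (hn : n ∈ N) (h2 : n * n = 1) :
    LinearMap.range (D.η hn) = D.perp (D.fix hn) := by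
  refine Submodule.eq_of_le_of_finrank_eq ?_ ?_
  · rintro _ ⟨v, rfl⟩ w hw
    show D.B w (D.η hn v) = 0
    rw [← D.η_adj hn h2, LinearMap.mem_ker.1 hw]
    simp
  · rw [D.finrank_perp]
    have h := LinearMap.finrank_range_add_finrank_ker (D.η hn)
    rw [Module.finrank_fin_fun] at h
    change _ = 6 - finrank (ZMod 2) (LinearMap.ker (D.η hn))
    omega

theorem perp_fix_le {n : G} (hn : n ∈ N) (h2 : n * n = 1) : D.perp (D.fix hn) ≤ D.fix hn := by
  rw [← D.range_eq_perp_fix hn h2]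
  exact D.range_le_fix hn h2

theorem exists_one {a : V6} (ha : a ≠ 0) : ∃ w, D.B a w = 1 := by
  by_contra h
  push Not at h
  exact ha (D.nondeg a fun w => (zmod_two_cases _).resolve_right (h w))

/-- A totally isotropic subspace of dimension three contains a totally singular line; so a
coisotropic subspace does. -/
theorem exists_line {X : Submodule (ZMod 2) V6} (hX : D.perp X ≤ X) :
    ∃ a b, a ∈ X ∧ b ∈ X ∧ a ≠ 0 ∧ b ≠ 0 ∧ a ≠ b ∧ D.q a = 0 ∧ D.q b = 0 ∧ D.B a b = 0 := by
  have key : ∀ k (I : Submodule (ZMod 2) V6), 3 - finrank (ZMod 2) I = k → I ≤ D.perp I →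
      ∃ J, I ≤ J ∧ J ≤ D.perp J ∧ finrank (ZMod 2) J = 3 := by
    intro k
    induction k with
    | zero =>
      intro I hk hI
      refine ⟨I, le_rfl, hI, ?_⟩
      have h := Submodule.finrank_mono hI
      rw [D.finrank_perp] at h
      omega
    | succ k ih =>
      intro I hk hI
      obtain ⟨v, hv, hvI⟩ : ∃ v ∈ D.perp I, v ∉ I := by
        by_contra h
        push Not at h
        have h' := Submodule.finrank_mono (show D.perp I ≤ I from h)
        rw [D.finrank_perp] at h'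
        omega
      have hlt : I < I ⊔ Submodule.span (ZMod 2) {v} :=
        left_lt_sup.2 fun hle => hvI (hle (Submodule.mem_span_singleton_self v))
      have hI' : I ⊔ Submodule.span (ZMod 2) {v} ≤ D.perp (I ⊔ Submodule.span (ZMod 2) {v}) := by
        intro y hy
        rw [mem_perp]
        intro w hw
        obtain ⟨y₁, hy₁, y₂, hy₂, rfl⟩ := Submodule.mem_sup.1 hy
        obtain ⟨w₁, hw₁, w₂, hw₂, rfl⟩ := Submodule.mem_sup.1 hw
        obtain ⟨c, rfl⟩ := Submodule.mem_span_singleton.1 hy₂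
        obtain ⟨d, rfl⟩ := Submodule.mem_span_singleton.1 hw₂
        simp only [map_add, LinearMap.add_apply, map_smul, LinearMap.smul_apply,
          hI hy₁ w₁ hw₁, hv w₁ hw₁, D.sk v y₁, hv y₁ hy₁, D.B_self, smul_zero, add_zero]
      have h1 := Submodule.finrank_lt_finrank_of_lt hlt
      have h2 := Submodule.finrank_add_le_finrank_add_finrank I (Submodule.span (ZMod 2) {v})
      have h3 : finrank (ZMod 2) (Submodule.span (ZMod 2) {v}) ≤ 1 := by
        refine (finrank_span_le_card _).trans ?_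
        simp
      obtain ⟨J, hJ, hJ'⟩ := ih _ (by omega) hI'
      exact ⟨J, le_trans le_sup_left hJ, hJ'⟩
  obtain ⟨J, hIJ, hJ, hJ3⟩ := key _ (D.perp X) rfl (by rw [D.perp_perp]; exact hX)
  have hJX : J ≤ X := by
    have h := D.perp_le hIJ
    rw [D.perp_perp] at h
    exact hJ.trans h
  let qJ : J →ₗ[ZMod 2] ZMod 2 :=
    AddMonoidHom.toZModLinearMap 2 (AddMonoidHom.mk' (fun j : J => D.q j) fun i j => by
      rw [Submodule.coe_add, D.q_add, hJ j.2 i i.2, add_zero])
  have hk : 2 ≤ finrank (ZMod 2) (LinearMap.ker qJ) := by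
    have h1 := LinearMap.finrank_range_add_finrank_ker qJ
    have h2 : finrank (ZMod 2) (LinearMap.range qJ) ≤ 1 :=
      (Submodule.finrank_le _).trans_eq (Module.finrank_self _)
    rw [hJ3] at h1
    omega
  let b := Module.finBasis (ZMod 2) (LinearMap.ker qJ)
  let i₀ : Fin (finrank (ZMod 2) (LinearMap.ker qJ)) := ⟨0, by omega⟩
  let i₁ : Fin (finrank (ZMod 2) (LinearMap.ker qJ)) := ⟨1, by omega⟩
  refine ⟨((b i₀ : J) : V6), ((b i₁ : J) : V6), hJX (b i₀ : J).2, hJX (b i₁ : J).2, ?_, ?_, ?_,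
    LinearMap.mem_ker.1 (b i₀).2, LinearMap.mem_ker.1 (b i₁).2, hJ (b i₁ : J).2 _ (b i₀ : J).2⟩
  · exact fun h => b.ne_zero i₀ (Subtype.ext (Subtype.ext h))
  · exact fun h => b.ne_zero i₁ (Subtype.ext (Subtype.ext h))
  · intro h
    have := b.injective (Subtype.ext (Subtype.ext h))
    simp [i₀, i₁] at this

/-- An anisotropic pair: two distinct nonsingular vectors with nonsingular sum. -/
theorem B_eq_one {a b : V6} (ha : D.q a = 1) (hb : D.q b = 1) (hab : D.q (a + b) = 1) :
    D.B a b = 1 := by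
  rw [D.q_add, ha, hb] at hab
  rcases zmod_two_cases (D.B a b) with h | h
  · rw [h] at hab
    exact absurd hab (by decide)
  · exact h

end Data

end CfsgLib.Geometric.PauliMinus
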