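import Cfsg.Agent.Lib.Geometric.PauliMinus.Sys

/-!
Five pairwise anticommuting elements with singular labels orthogonal to an anticommuting pair.
-/

set_option autoImplicit false

namespace CfsgLib.Geometric.PauliMinus

open CfsgLib.Geometric.PauliMax (V6 two_torsion add_eq_zero_iff')

variable {F : Type*} [Field F]

/-- An anticommuting pair with singular labels and five pairwise anticommuting ones orthogonal
to it. -/
structure IsFive (S : Sys F) (a u : V6) (z : Fin 5 → V6) : Prop where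
  q_a : S.q a = 0
  q_u : S.q u = 0
  B_au : S.B a u = 1
  q_z : ∀ i, S.q (z i) = 0
  B_a : ∀ i, S.B a (z i) = 0
  B_u : ∀ i, S.B u (z i) = 0
  B_z : ∀ i j, i ≠ j → S.B (z i) (z j) = 1
  span : Submodule.span (ZMod 2) ({a, u} ∪ Set.range z) = ⊤

namespace Sys

variable (S : Sys F)

theorem exists_B_one {a : V6} (ha : a ≠ 0) : ∃ w, S.B a w = 1 := by
  by_contra h
  push Not at h
  refine ha (S.nondeg a fun w => ?_)
  have h' := h w
  revert h'
  generalize S.B a w = c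
  revert c
  decide

theorem B_smul_add (x y : V6) (c : ZMod 2) (w : V6) :
    S.B w (x + c • y) = S.B w x + c * S.B w y := by
  rw [map_add, map_smul, smul_eq_mul]

/-- The existence of five. -/
theorem exists_five {a u : V6} (hqa : S.q a = 0) (hqu : S.q u = 0) (hau : S.B a u = 1) :
    ∃ z, IsFive S a u z := by
  have hua : S.B u a = 1 := (S.sk u a).trans hau
  have ha0 : a ≠ 0 := by rintro rfl; rw [map_zero, LinearMap.zero_apply] at hau; exact zero_ne_one hau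
  have dich : ∀ c : ZMod 2, c = 0 ∨ c = 1 := by decide
  have h11 : (1 : ZMod 2) + 1 = 0 := by decide
  -- projection away from the pair
  let π : V6 → V6 := fun w => w + S.B u w • a + S.B a w • u
  have hπa : ∀ w, S.B a (π w) = 0 := fun w => by
    simp [π, S.B_self, hau, CharTwo.add_self_eq_zero]
  have hπu : ∀ w, S.B u (π w) = 0 := fun w => by
    simp [π, S.B_self, hua, CharTwo.add_self_eq_zero]
  have hπ : ∀ x w, S.B x a = 0 → S.B x u = 0 → S.B x (π w) = S.B x w := fun x w h1 h2 => by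
    simp [π, h1, h2]
  obtain ⟨z₀, hz00, hqz₀, haz₀, huz₀⟩ : ∃ z, z ≠ 0 ∧ S.q z = 0 ∧ S.B a z = 0 ∧ S.B u z = 0 := by
    obtain ⟨v, hv0, hva, hvu⟩ : ∃ v, v ≠ 0 ∧ S.B a v = 0 ∧ S.B u v = 0 := by
      let φ : V6 →ₗ[ZMod 2] ZMod 2 × ZMod 2 := (S.B a).prod (S.B u)
      obtain ⟨v, hv, hv0⟩ : ∃ v ∈ LinearMap.ker φ, v ≠ 0 := by
        refine Submodule.exists_mem_ne_zero_of_ne_bot fun hb => ?_
        have hle := LinearMap.finrank_le_finrank_of_injective (LinearMap.ker_eq_bot.1 hb)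
        rw [Module.finrank_fin_fun, Module.finrank_prod, Module.finrank_self] at hle
        omega
      exact ⟨v, hv0, congrArg Prod.fst (LinearMap.mem_ker.1 hv),
        congrArg Prod.snd (LinearMap.mem_ker.1 hv)⟩
    obtain ⟨w₀, hw₀⟩ := S.exists_B_one hv0
    set w := π w₀ with hw
    have hvw : S.B v w = 1 := by rw [hw, hπ v w₀ (by rw [S.sk, hva]) (by rw [S.sk, hvu]), hw₀]
    rcases dich (S.q v) with hqv | hqv
    · exact ⟨v, hv0, hqv, hva, hvu⟩
    have hw0 : w ≠ 0 := by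
      intro h; rw [h, map_zero] at hvw; exact zero_ne_one hvw
    rcases dich (S.q w) with hqw | hqw
    · exact ⟨w, hw0, hqw, hπa w₀, hπu w₀⟩
    let φ : V6 →ₗ[ZMod 2] (ZMod 2 × ZMod 2) × (ZMod 2 × ZMod 2) :=
      ((S.B a).prod (S.B u)).prod ((S.B v).prod (S.B w))
    obtain ⟨k, hk, hk0⟩ : ∃ k ∈ LinearMap.ker φ, k ≠ 0 := by
      refine Submodule.exists_mem_ne_zero_of_ne_bot fun hb => ?_
      have hle := LinearMap.finrank_le_finrank_of_injective (LinearMap.ker_eq_bot.1 hb)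
      simp only [Module.finrank_fin_fun, Module.finrank_prod, Module.finrank_self] at hle
      omega
    have hka : S.B a k = 0 := congrArg (fun p => p.1.1) (LinearMap.mem_ker.1 hk)
    have hku : S.B u k = 0 := congrArg (fun p => p.1.2) (LinearMap.mem_ker.1 hk)
    have hkv : S.B v k = 0 := congrArg (fun p => p.2.1) (LinearMap.mem_ker.1 hk)
    have hkw : S.B w k = 0 := congrArg (fun p => p.2.2) (LinearMap.mem_ker.1 hk)
    rcases dich (S.q k) with hqk | hqk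
    · exact ⟨k, hk0, hqk, hka, hku⟩
    refine ⟨v + k, fun h => ?_, by rw [S.q_add, hqv, hqk, hkv, add_zero, h11],
      by rw [map_add, hva, hka, add_zero], by rw [map_add, hvu, hku, add_zero]⟩
    rw [← (add_eq_zero_iff' _ _).1 h, S.sk, hvw] at hkw
    exact one_ne_zero hkw
  have hz₀a : S.B z₀ a = 0 := (S.sk _ _).trans haz₀
  have hz₀u : S.B z₀ u = 0 := (S.sk _ _).trans huz₀
  obtain ⟨z₁, hqz₁, haz₁, huz₁, h01⟩ : ∃ z, S.q z = 0 ∧ S.B a z = 0 ∧ S.B u z = 0 ∧ S.B z₀ z = 1 := by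
    obtain ⟨w₀, hw₀⟩ := S.exists_B_one hz00
    have h := hπ z₀ w₀ hz₀a hz₀u
    rw [hw₀] at h
    rcases dich (S.q (π w₀)) with hq | hq
    · exact ⟨π w₀, hq, hπa w₀, hπu w₀, h⟩
    · refine ⟨π w₀ + z₀, ?_, by rw [map_add, hπa, haz₀, add_zero],
        by rw [map_add, hπu, huz₀, add_zero], by rw [map_add, h, S.B_self, add_zero]⟩
      rw [S.q_add, hq, hqz₀, S.sk, h, add_zero, h11]
  have hz₁a : S.B z₁ a = 0 := (S.sk _ _).trans haz₁
  have hz₁u : S.B z₁ u = 0 := (S.sk _ _).trans huz₁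
  have h10 : S.B z₁ z₀ = 1 := (S.sk _ _).trans h01
  -- the anisotropic line
  have hK : ∀ r, r ≠ 0 → S.B a r = 0 → S.B u r = 0 → S.B z₀ r = 0 → S.B z₁ r = 0 → S.q r = 1 := by
    intro r hr0 har hur h0r h1r
    refine (dich _).resolve_left fun hq => ?_
    rcases S.minus a z₀ r hqa hqz₀ hq haz₀ har h0r ha0 hz00 (fun h => by
      rw [← h, hua] at huz₀; exact one_ne_zero huz₀) with rfl | rfl | rfl | rfl
    · exact hr0 rfl
    · rw [hua] at hur; exact one_ne_zero hur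
    · rw [h10] at h1r; exact one_ne_zero h1r
    · rw [map_add, hua, huz₀, add_zero] at hur; exact one_ne_zero hur
  obtain ⟨r₁, hr10, har₁, hur₁, h0r₁, h1r₁⟩ : ∃ r, r ≠ 0 ∧ S.B a r = 0 ∧ S.B u r = 0 ∧
      S.B z₀ r = 0 ∧ S.B z₁ r = 0 := by
    let φ : V6 →ₗ[ZMod 2] (ZMod 2 × ZMod 2) × (ZMod 2 × ZMod 2) :=
      ((S.B a).prod (S.B u)).prod ((S.B z₀).prod (S.B z₁))
    obtain ⟨k, hk, hk0⟩ : ∃ k ∈ LinearMap.ker φ, k ≠ 0 := by
      refine Submodule.exists_mem_ne_zero_of_ne_bot fun hb => ?_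
      have hle := LinearMap.finrank_le_finrank_of_injective (LinearMap.ker_eq_bot.1 hb)
      simp only [Module.finrank_fin_fun, Module.finrank_prod, Module.finrank_self] at hle
      omega
    exact ⟨k, hk0, congrArg (fun p => p.1.1) (LinearMap.mem_ker.1 hk),
      congrArg (fun p => p.1.2) (LinearMap.mem_ker.1 hk),
      congrArg (fun p => p.2.1) (LinearMap.mem_ker.1 hk),
      congrArg (fun p => p.2.2) (LinearMap.mem_ker.1 hk)⟩
  have hr₁a : S.B r₁ a = 0 := (S.sk _ _).trans har₁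
  have hr₁u : S.B r₁ u = 0 := (S.sk _ _).trans hur₁
  have hr₁0 : S.B r₁ z₀ = 0 := (S.sk _ _).trans h0r₁
  have hr₁1 : S.B r₁ z₁ = 0 := (S.sk _ _).trans h1r₁
  obtain ⟨r₂, har₂, hur₂, h0r₂, h1r₂, h12⟩ : ∃ r, S.B a r = 0 ∧ S.B u r = 0 ∧ S.B z₀ r = 0 ∧
      S.B z₁ r = 0 ∧ S.B r₁ r = 1 := by
    obtain ⟨w₀, hw₀⟩ := S.exists_B_one hr10
    refine ⟨π w₀ + S.B z₁ (π w₀) • z₀ + S.B z₀ (π w₀) • z₁, ?_, ?_, ?_, ?_, ?_⟩
    · simp [hπa, haz₀, haz₁]
    · simp [hπu, huz₀, huz₁]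
    · simp [S.B_self, h01, CharTwo.add_self_eq_zero]
    · simp [S.B_self, h10, CharTwo.add_self_eq_zero]
    · simp [hr₁0, hr₁1, hπ r₁ w₀ hr₁a hr₁u, hw₀]
  have h21 : S.B r₂ r₁ = 1 := (S.sk _ _).trans h12
  have hr₂0 : S.B r₂ z₀ = 0 := (S.sk _ _).trans h0r₂
  have hr₂1 : S.B r₂ z₁ = 0 := (S.sk _ _).trans h1r₂
  have hr20 : r₂ ≠ 0 := by rintro rfl; rw [map_zero] at h12; exact zero_ne_one h12
  have hq₁ := hK r₁ hr10 har₁ hur₁ h0r₁ h1r₁
  have hq₂ := hK r₂ hr20 har₂ hur₂ h0r₂ h1r₂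
  let z : Fin 5 → V6 := ![z₀, z₁, z₀ + z₁ + r₁, z₀ + z₁ + r₂, z₀ + z₁ + (r₁ + r₂)]
  have hz : ∀ i j, i ≠ j → S.B (z i) (z j) = 1 := by
    intro i j hij
    fin_cases i <;> fin_cases j <;>
      simp [z, S.B_self, h01, h10, h0r₁, h1r₁, hr₁0, hr₁1, h0r₂, h1r₂, hr₂0, hr₂1, h12, h21, h11]
        at hij ⊢
  refine ⟨z, hqa, hqu, hau, ?_, ?_, ?_, hz, ?_⟩
  · intro i
    fin_cases i <;>
      simp [z, S.q_add, hqz₀, hqz₁, hq₁, hq₂, h01, h0r₁, h1r₁, h0r₂, h1r₂, h12, h11]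
  · intro i
    fin_cases i <;> simp [z, haz₀, haz₁, har₁, har₂]
  · intro i
    fin_cases i <;> simp [z, huz₀, huz₁, hur₁, hur₂]
  · let e : Fin 6 → V6 := ![a, u, z 0, z 1, z 2, z 3]
    have hli : LinearIndependent (ZMod 2) e := by
      rw [Fintype.linearIndependent_iff]
      intro c hc
      have key : ∀ v, ∑ i, c i * S.B v (e i) = 0 := fun v => by
        have := congrArg (S.B v) hc
        simpa [map_sum, smul_eq_mul] using this
      have hBa : ∀ i, S.B a (z i) = 0 := fun i => by fin_cases i <;> simp [z, haz₀, haz₁, har₁, har₂]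
      have hBu : ∀ i, S.B u (z i) = 0 := fun i => by fin_cases i <;> simp [z, huz₀, huz₁, hur₁, hur₂]
      have hBa' : ∀ i, S.B (z i) a = 0 := fun i => (S.sk _ _).trans (hBa i)
      have hBu' : ∀ i, S.B (z i) u = 0 := fun i => (S.sk _ _).trans (hBu i)
      have e1 := key a
      have e2 := key u
      have e3 := key (z 0)
      have e4 := key (z 1)
      have e5 := key (z 2)
      have e6 := key (z 3)
      simp [e, Fin.sum_univ_six, S.B_self, hau, hua, hBa, hBu, hBa', hBu', hz] at e1 e2 e3 e4 e5 e6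
      have fin : ∀ p q r s : ZMod 2, q + r + s = 0 → p + r + s = 0 → p + q + s = 0 → p + q + r = 0 →
          p = 0 ∧ q = 0 ∧ r = 0 ∧ s = 0 := by decide
      obtain ⟨h2', h3', h4', h5'⟩ := fin _ _ _ _ e3 e4 e5 e6
      intro i
      fin_cases i <;> assumption
    have htop := hli.span_eq_top_of_card_eq_finrank' (by simp)
    refine eq_top_iff.2 (htop ▸ Submodule.span_mono ?_)
    rintro _ ⟨i, rfl⟩
    fin_cases i
    · exact Or.inl (Or.inl rfl)
    · exact Or.inl (Or.inr rfl)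
    · exact Or.inr ⟨0, rfl⟩
    · exact Or.inr ⟨1, rfl⟩
    · exact Or.inr ⟨2, rfl⟩
    · exact Or.inr ⟨3, rfl⟩

end Sys

end CfsgLib.Geometric.PauliMinus
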