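import Cfsg.Agent.Lib.Geometric.PauliMinus.Data

/-!
If the centralisers of the elements with singular label lie in `N`, then such an element is moved
into `N` only by elements of `N`.
-/

set_option autoImplicit false

namespace CfsgLib.Geometric.PauliMinus

open Module
open CfsgLib.Geometric.PauliMax (V6 two_torsion neg_eq_self add_eq_zero_iff')

namespace Data

variable {G : Type*} [Group G] {N : Subgroup G} (D : Data G N)

/-- The centralisers of the elements with singular label lie in `N`. -/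
def LocalSing : Prop := ∀ a, a ≠ 0 → D.q a = 0 → ∀ g : G, Commute g (D.x a) → g ∈ N

theorem mem_of_conj_x (hloc : D.LocalSing) {g : G} {a b : V6} (ha : a ≠ 0) (hqa : D.q a = 0)
    (h : g * D.x a * g⁻¹ = D.x b) : g ∈ N := by
  have hb : b ≠ 0 := by
    rintro rfl
    rw [D.x_zero, conj_eq_one_iff] at h
    exact ha (D.x_eq_one.1 h)
  obtain ⟨n, hn, hnb⟩ := D.trans b a hb ha (by rw [← D.q_conj g a b h, hqa]) hqa
  have hc : Commute (n * g) (D.x a) := by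
    have e : n * g * D.x a * (n * g)⁻¹ = D.x a := by
      rw [show n * g * D.x a * (n * g)⁻¹ = n * (g * D.x a * g⁻¹) * n⁻¹ by group, h, D.conj n hn,
        hnb]
    rw [mul_inv_eq_iff_eq_mul] at e
    exact e
  exact (N.mul_mem_cancel_left hn).1 (hloc a ha hqa _ hc)

/-- Conjugate of an element of the system. -/
def cx (g : G) (a : V6) : G := g * D.x a * g⁻¹

theorem cx_add (g : G) (a b : V6) : D.cx g (a + b) = D.cx g a * D.cx g b := by
  simp only [cx, D.x_add]; group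

theorem cx_sq (g : G) (a : V6) : D.cx g a * D.cx g a = 1 := by
  rw [← cx_add, two_torsion, cx, D.x_zero]; group

theorem cx_zero (g : G) : D.cx g 0 = 1 := by
  rw [cx, D.x_zero, mul_one, mul_inv_cancel]

/-- The labels which `g` moves into `N`. -/
def meet (g : G) : Submodule (ZMod 2) V6 :=
  AddSubgroup.toZModSubmodule 2
    { carrier := {a | D.cx g a ∈ N}
      zero_mem' := by
        show D.cx g 0 ∈ N
        rw [cx_zero]
        exact one_mem N
      add_mem' := fun {a b} ha hb => by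
        show D.cx g (a + b) ∈ N
        rw [cx_add]
        exact mul_mem ha hb
      neg_mem' := fun {a} ha => by rwa [neg_eq_self] }

theorem mem_meet {g : G} {a : V6} : a ∈ D.meet g ↔ D.cx g a ∈ N := Iff.rfl

theorem fix_le_meet (hloc : D.LocalSing) {g : G} {a : V6} (ha : D.cx g a ∈ N) (ha0 : a ≠ 0)
    (hqa : D.q a = 0) : D.fix ha ≤ D.meet g⁻¹ := by
  intro v hv
  rw [D.mem_fix] at hv
  rw [mem_meet, show D.cx g⁻¹ v = g⁻¹ * D.x v * g by rw [cx, inv_inv]]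
  refine hloc a ha0 hqa _ ?_
  have h := ((D.commute_x_iff ha).2 hv).eq
  rw [cx] at h
  show g⁻¹ * D.x v * g * D.x a = D.x a * (g⁻¹ * D.x v * g)
  calc g⁻¹ * D.x v * g * D.x a = g⁻¹ * (D.x v * (g * D.x a * g⁻¹)) * g := by group
    _ = g⁻¹ * (g * D.x a * g⁻¹ * D.x v) * g := by rw [h]
    _ = D.x a * (g⁻¹ * D.x v * g) := by group

theorem meet_coisotropic (hloc : D.LocalSing) {g : G} {a : V6} (ha : a ∈ D.meet g) (ha0 : a ≠ 0)
    (hqa : D.q a = 0) : D.perp (D.meet g⁻¹) ≤ D.meet g⁻¹ := by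
  have h := D.fix_le_meet hloc ha ha0 hqa
  exact (D.perp_le h).trans ((D.perp_fix_le ha (D.cx_sq g a)).trans h)

/-- Commutators of two mutually moved elements. -/
theorem exists_disp {g : G} {b v : V6} (hb : D.cx g b ∈ N) (hv : D.cx g⁻¹ v ∈ N) :
    ∃ c, D.cx g c = D.x (v + D.s (D.cx g b) v) := by
  refine ⟨b + D.s (D.cx g⁻¹ v) b, ?_⟩
  have hi : (D.cx g b)⁻¹ = D.cx g b := inv_eq_of_mul_eq_one_right (D.cx_sq g b)
  have hj : (D.cx g⁻¹ v)⁻¹ = D.cx g⁻¹ v := inv_eq_of_mul_eq_one_right (D.cx_sq g⁻¹ v)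
  rw [add_comm v, D.x_add, ← D.conj _ hb, hi]
  show g * D.x (b + D.s (D.cx g⁻¹ v) b) * g⁻¹ = _
  rw [D.x_add, ← D.conj _ hv, hj]
  simp only [cx, inv_inv]
  group

/-- The fusion statement. -/
theorem fusion (hloc : D.LocalSing) {g : G} {a : V6} (ha0 : a ≠ 0) (hqa : D.q a = 0)
    (ha : g * D.x a * g⁻¹ ∈ N) : g ∈ N := by
  by_contra hg
  change D.cx g a ∈ N at ha
  have hW : D.perp (D.meet g⁻¹) ≤ D.meet g⁻¹ := D.meet_coisotropic hloc ha ha0 hqa
  have hA : D.perp (D.meet g) ≤ D.meet g := by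
    obtain ⟨v, -, hv, -, hv0, -, -, hqv, -⟩ := D.exists_line hW
    have h := D.meet_coisotropic hloc hv hv0 hqv
    rwa [inv_inv] at h
  -- conjugates inside the system have nonsingular labels
  have hC : ∀ {c d : V6}, D.cx g c = D.x d → c ≠ 0 → D.q c = 1 := fun {c d} h hc =>
    zmod_two_one fun hq => hg (D.mem_of_conj_x hloc hc hq h)
  have hC0 : ∀ {b d : V6}, D.cx g b = D.x d → D.q b = 0 → b = 0 := fun {b d} h hq =>
    not_not.1 fun hb => hg (D.mem_of_conj_x hloc hb hq h)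
  -- the displacements by the moved elements
  have claim : ∀ {b v c : V6} (hb : D.cx g b ∈ N), v + D.s (D.cx g b) v ≠ 0 →
      D.cx g c = D.x (v + D.s (D.cx g b) v) → c ≠ 0 ∧ D.B b c = 1 := by
    intro b v c hb hd hc
    have hc0 : c ≠ 0 := by
      rintro rfl
      rw [D.cx_zero] at hc
      exact hd (D.x_eq_one.1 hc.symm)
    refine ⟨hc0, ?_⟩
    have h1 := D.ε_conj g _ _ (D.x_commute b c)
    rw [D.ε_x, show g * D.x c * g⁻¹ = _ from hc] at h1
    rw [← h1, show g * D.x b * g⁻¹ = D.cx g b from rfl, D.ε_fix _ hb (D.cx_sq g b)]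
    have h2 := D.q_add v (D.s (D.cx g b) v)
    rw [D.q_s hb, CharTwo.add_self_eq_zero, zero_add, ← D.q_conj g c _ hc, hC hc hc0] at h2
    exact h2.symm
  have hstep : ∀ b, D.q b = 0 → ∀ hb : D.cx g b ∈ N,
      (∀ c d, D.cx g c = D.x d → D.B b c = 1 →
        ∃ c' d', D.cx g c' = D.x d' ∧ c' ≠ c ∧ D.B b c' = 1) →
      ∀ v, D.cx g⁻¹ v ∈ N → D.s (D.cx g b) v = v := by
    intro b hqb hb hmul v hv
    by_contra hne
    have hd : v + D.s (D.cx g b) v ≠ 0 := fun h => hne ((add_eq_zero_iff' _ _).1 h).symm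
    obtain ⟨c, hc⟩ := D.exists_disp hb hv
    obtain ⟨hc0, hbc⟩ := claim hb hd hc
    obtain ⟨c', d', hc', hne', hbc'⟩ := hmul c _ hc hbc
    have hc'0 : c' ≠ 0 := by
      rintro rfl
      rw [map_zero] at hbc'
      exact zero_ne_one hbc'
    have hn' : D.cx g (b + c') = D.cx g b * D.x d' := by rw [D.cx_add, hc']
    have hb' : D.cx g (b + c') ∈ N := hn' ▸ mul_mem hb (D.x_mem d')
    have hs : D.s (D.cx g (b + c')) v = D.s (D.cx g b) v := by
      rw [hn', D.s_mul hb (D.x_mem d'), D.s_x]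
    obtain ⟨-, hB⟩ := claim hb' (by rw [hs]; exact hd) (by rw [hs]; exact hc)
    rw [map_add, LinearMap.add_apply, hbc] at hB
    have hq : D.q (c' + c) = 1 := by
      refine hC (d := d' + (v + D.s (D.cx g b) v)) ?_ fun h => hne' ((add_eq_zero_iff' _ _).1 h)
      rw [D.cx_add, hc', hc, ← D.x_add]
    have h1 := D.B_eq_one (hC hc' hc'0) (hC hc hc0) hq
    rw [h1] at hB
    exact absurd hB (by decide)
  -- a totally singular line of moved labels which fix everything moved back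
  obtain ⟨b₁, b₂, hb₁, hb₂, h10, h20, h12, hq₁, hq₂, hB12, hmul⟩ :
      ∃ b₁ b₂, b₁ ∈ D.meet g ∧ b₂ ∈ D.meet g ∧ b₁ ≠ 0 ∧ b₂ ≠ 0 ∧ b₁ ≠ b₂ ∧ D.q b₁ = 0 ∧
        D.q b₂ = 0 ∧ D.B b₁ b₂ = 0 ∧
        ∀ b, (b = b₁ ∨ b = b₂ ∨ b = b₁ + b₂) → ∀ c d, D.cx g c = D.x d → D.B b c = 1 →
          ∃ c' d', D.cx g c' = D.x d' ∧ c' ≠ c ∧ D.B b c' = 1 := by
    by_cases htwo : ∃ c₁ c₂ d₁ d₂, D.cx g c₁ = D.x d₁ ∧ D.cx g c₂ = D.x d₂ ∧ c₁ ≠ 0 ∧ c₂ ≠ 0 ∧
        c₁ ≠ c₂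
    · obtain ⟨c₁, c₂, d₁, d₂, hc₁, hc₂, hc₁0, hc₂0, hcc⟩ := htwo
      obtain ⟨b₁, b₂, hb₁, hb₂, h10, h20, h12, hq₁, hq₂, hB⟩ := D.exists_line hA
      refine ⟨b₁, b₂, hb₁, hb₂, h10, h20, h12, hq₁, hq₂, hB, fun b _ c d hc hbc => ?_⟩
      obtain ⟨e, de, he, he0, hec⟩ : ∃ e de, D.cx g e = D.x de ∧ e ≠ 0 ∧ e ≠ c := by
        by_cases h : c₁ = c
        · exact ⟨c₂, d₂, hc₂, hc₂0, fun h' => hcc (h.trans h'.symm)⟩
        · exact ⟨c₁, d₁, hc₁, hc₁0, h⟩
      rcases zmod_two_cases (D.B b e) with hbe | hbe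
      · exact ⟨c + e, d + de, by rw [D.cx_add, hc, he, ← D.x_add],
          fun h => he0 (add_eq_left.1 h), by rw [map_add, hbc, hbe, add_zero]⟩
      · exact ⟨e, de, he, hec, hbe⟩
    · push Not at htwo
      obtain ⟨c₀, hc₀A, hc₀⟩ : ∃ c₀ ∈ D.meet g, ∀ c d, D.cx g c = D.x d → c = 0 ∨ c = c₀ := by
        by_cases h : ∃ c d, D.cx g c = D.x d ∧ c ≠ 0
        · obtain ⟨c, d, hc, hc0⟩ := h
          refine ⟨c, show D.cx g c ∈ N from hc ▸ D.x_mem d, fun c' d' hc' => ?_⟩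
          by_cases hc'0 : c' = 0
          · exact Or.inl hc'0
          · exact Or.inr (htwo c' c d' d hc' hc hc'0 hc0)
        · push Not at h
          exact ⟨0, zero_mem _, fun c d hc => Or.inl (h c d hc)⟩
      have hX : D.perp (D.perp (D.perp (D.meet g) ⊔ Submodule.span (ZMod 2) {c₀})) ≤
          D.perp (D.perp (D.meet g) ⊔ Submodule.span (ZMod 2) {c₀}) := by
        rw [D.perp_perp]
        intro y hy
        rw [mem_perp]
        intro w hw
        obtain ⟨y₁, hy₁, y₂, hy₂, rfl⟩ := Submodule.mem_sup.1 hy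
        obtain ⟨w₁, hw₁, w₂, hw₂, rfl⟩ := Submodule.mem_sup.1 hw
        obtain ⟨r, rfl⟩ := Submodule.mem_span_singleton.1 hy₂
        obtain ⟨t, rfl⟩ := Submodule.mem_span_singleton.1 hw₂
        simp only [map_add, LinearMap.add_apply, map_smul, LinearMap.smul_apply,
          hy₁ w₁ (hA hw₁), hy₁ c₀ hc₀A, D.sk w₁ c₀, hw₁ c₀ hc₀A, D.B_self, smul_zero, add_zero]
      obtain ⟨b₁, b₂, hb₁, hb₂, h10, h20, h12, hq₁, hq₂, hB⟩ := D.exists_line hX
      have hle : D.perp (D.perp (D.meet g) ⊔ Submodule.span (ZMod 2) {c₀}) ≤ D.meet g :=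
        (D.perp_le le_sup_left).trans_eq (D.perp_perp _)
      refine ⟨b₁, b₂, hle hb₁, hle hb₂, h10, h20, h12, hq₁, hq₂, hB, fun b hb c d hc hbc => ?_⟩
      exfalso
      have hbX : b ∈ D.perp (D.perp (D.meet g) ⊔ Submodule.span (ZMod 2) {c₀}) := by
        rcases hb with rfl | rfl | rfl
        · exact hb₁
        · exact hb₂
        · exact add_mem hb₁ hb₂
      rcases hc₀ c d hc with rfl | rfl
      · rw [map_zero] at hbc
        exact zero_ne_one hbc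
      · have h := hbX c (Submodule.mem_sup_right (Submodule.mem_span_singleton_self c))
        rw [D.sk] at h
        exact zero_ne_one (h.symm.trans hbc)
  set W := D.meet g⁻¹
  set n₁ := D.cx g b₁
  set n₂ := D.cx g b₂
  have hn₁ : n₁ ∈ N := hb₁
  have hn₂ : n₂ ∈ N := hb₂
  have hn₁2 : n₁ * n₁ = 1 := D.cx_sq g b₁
  have hn₂2 : n₂ * n₂ = 1 := D.cx_sq g b₂
  have hfix₁ : D.fix hn₁ = W := le_antisymm (D.fix_le_meet hloc hb₁ h10 hq₁) fun v hv =>
    (D.mem_fix hn₁).2 (hstep b₁ hq₁ hb₁ (hmul b₁ (Or.inl rfl)) v hv)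
  have hfix₂ : D.fix hn₂ = W := le_antisymm (D.fix_le_meet hloc hb₂ h20 hq₂) fun v hv =>
    (D.mem_fix hn₂).2 (hstep b₂ hq₂ hb₂ (hmul b₂ (Or.inr (Or.inl rfl))) v hv)
  have hqb : D.q (b₁ + b₂) = 0 := by rw [D.q_add, hq₁, hq₂, hB12]; rfl
  have hb : D.cx g (b₁ + b₂) = n₁ * n₂ := D.cx_add g b₁ b₂
  have hbN : n₁ * n₂ ∈ N := mul_mem hn₁ hn₂
  have hb2 : (n₁ * n₂) * (n₁ * n₂) = 1 := by rw [← hb, D.cx_sq]
  have hfix₃ : ∀ {n : G} (hn : n ∈ N), n = D.cx g (b₁ + b₂) → D.fix hn = W := by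
    rintro n hn rfl
    exact le_antisymm (D.fix_le_meet hloc hn (fun h => h12 ((add_eq_zero_iff' _ _).1 h)) hqb)
      fun v hv => (D.mem_fix hn).2
        (hstep _ hqb hn (hmul _ (Or.inr (Or.inr rfl))) v hv)
  have hfix₁₂ : D.fix hbN = W := hfix₃ hbN hb.symm
  -- every vector of the displacement space is singular
  have hqu : ∀ {n : G} (hn : n ∈ N) (v : V6), D.q (D.η hn v) = D.B v (D.s n v) := by
    intro n hn v
    rw [η_apply, D.q_add, D.q_s hn, CharTwo.add_self_eq_zero, zero_add]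
  have hU : ∀ u ∈ D.perp W, D.q u = 0 := by
    intro u hu
    have hε : ∀ {n : G} (hn : n ∈ N), n * n = 1 → D.fix hn = W →
        D.ε n (D.x u) = D.q u ∧ Commute n (D.x u) := by
      intro n hn hn2 hfix
      have hu' := hu
      rw [← hfix, ← D.range_eq_perp_fix hn hn2] at hu'
      obtain ⟨v, rfl⟩ := hu'
      refine ⟨by rw [hqu, η_apply, D.ε_fix _ hn hn2], (D.commute_x_iff hn).2 ?_⟩
      rw [← D.mem_fix hn]
      exact D.range_le_fix hn hn2 ⟨v, rfl⟩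
    obtain ⟨e1, c1⟩ := hε hn₁ hn₁2 hfix₁
    obtain ⟨e2, c2⟩ := hε hn₂ hn₂2 hfix₂
    obtain ⟨e3, -⟩ := hε hbN hb2 hfix₁₂
    rw [D.ε_mul _ _ _ c1 c2, e1, e2, CharTwo.add_self_eq_zero] at e3
    exact e3.symm
  -- so the two elements act in the same way
  have hη : ∀ v, D.η hn₁ v = D.η hn₂ v := by
    intro v
    by_contra hne
    set u₁ := D.η hn₁ v with hu₁
    set u₂ := D.η hn₂ v with hu₂
    have hm₁ : u₁ ∈ D.perp W := by
      rw [← hfix₁, ← D.range_eq_perp_fix hn₁ hn₁2]; exact ⟨v, rfl⟩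
    have hm₂ : u₂ ∈ D.perp W := by
      rw [← hfix₂, ← D.range_eq_perp_fix hn₂ hn₂2]; exact ⟨v, rfl⟩
    have hz : ∀ {y z : V6}, y ∈ D.perp W → z ∈ D.perp W → D.B y z = 0 := fun {y z} hy hz =>
      hz y (hW hy)
    have hvu : ∀ {n : G} (hn : n ∈ N), D.η hn v ∈ D.perp W → D.B v (D.η hn v) = 0 := by
      intro n hn hm
      rw [η_apply, map_add, D.B_self, zero_add, ← hqu hn, hU _ hm]
    have h0₁ : u₁ ≠ 0 := fun h => by
      have hvW : v ∈ W := hfix₁ ▸ (LinearMap.mem_ker.2 h : v ∈ D.fix hn₁)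
      rw [← hfix₂] at hvW
      exact hne (h.trans (LinearMap.mem_ker.1 hvW).symm)
    have h0₂ : u₂ ≠ 0 := fun h => by
      have hvW : v ∈ W := hfix₂ ▸ (LinearMap.mem_ker.2 h : v ∈ D.fix hn₂)
      rw [← hfix₁] at hvW
      exact hne ((LinearMap.mem_ker.1 hvW).trans h.symm)
    have hvW : v ∈ W := by
      rw [← D.perp_perp W, mem_perp]
      intro u hu
      rw [D.sk]
      rcases D.minus u₁ u₂ u (hU _ hm₁) (hU _ hm₂) (hU _ hu) (hz hm₁ hm₂) (hz hm₁ hu) (hz hm₂ hu)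
        h0₁ h0₂ hne with rfl | rfl | rfl | rfl
      · rw [map_zero]
      · exact hvu hn₁ hm₁
      · exact hvu hn₂ hm₂
      · rw [map_add, hvu hn₁ hm₁, hvu hn₂ hm₂, add_zero]
    exact h0₁ (LinearMap.mem_ker.1 (hfix₁.symm ▸ hvW : v ∈ D.fix hn₁))
  obtain ⟨d, hd⟩ := D.ker _ hbN fun v => by
    have h : D.s n₁ v = D.s n₂ v := add_left_cancel (hη v)
    rw [D.s_mul hn₁ hn₂, ← h, D.inv_s hn₁ hn₁2]
  exact h12 ((add_eq_zero_iff' _ _).1 (hC0 (hb.trans hd) hqb))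

end Data

end CfsgLib.Geometric.PauliMinus
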