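import Cfsg.Agent.Lib.Geometric.PauliMinus.Five
import Cfsg.Agent.Lib.Geometric.PauliMinus.Action

/-!
The isometries permuting a system of minus type are transitive on the non-zero singular labels.
-/

set_option autoImplicit false
set_option linter.unusedSectionVars false

namespace CfsgLib.Geometric.PauliMinus

open Matrix
open CfsgLib.Geometric.PauliMax (V6 sgn sgn_zero sgn_one sgn_sq sgn_add two_torsion add_eq_zero_iff')

variable {F : Type*} [Field F]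

local notation "𝕄" => Matrix I8 I8 F

theorem sympForm_expand (A B : 𝕄) (x y : I8 → F) :
    Cfsg.sympForm 4 F ((A - B) *ᵥ x) ((A - B) *ᵥ y) =
      Cfsg.sympForm 4 F (A *ᵥ x) (A *ᵥ y) + Cfsg.sympForm 4 F (B *ᵥ x) (B *ᵥ y) -
        Cfsg.sympForm 4 F (A *ᵥ x) (B *ᵥ y) - Cfsg.sympForm 4 F (B *ᵥ x) (A *ᵥ y) := by
  simp only [Cfsg.sympForm, Matrix.sub_mulVec, Matrix.mulVec_sub, dotProduct_sub, sub_dotProduct]
  ring

theorem sympForm_smul_smul (c d : F) (x y : I8 → F) :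
    Cfsg.sympForm 4 F (c • x) (d • y) = c * d * Cfsg.sympForm 4 F x y := by
  simp only [Cfsg.sympForm, Matrix.mulVec_smul, smul_dotProduct, dotProduct_smul, smul_eq_mul]
  ring

theorem sympForm_neg_right (x y : I8 → F) :
    Cfsg.sympForm 4 F x (-y) = -Cfsg.sympForm 4 F x y := by
  simp only [Cfsg.sympForm, Matrix.mulVec_neg, dotProduct_neg]

namespace Sys

variable (S : Sys F)

/-- The difference of two anticommuting involutions scales the form by two. -/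
theorem sympForm_sub {a b : V6} (ha : S.q a = 0) (hb : S.q b = 0) (hab : S.B a b = 1)
    (x y : I8 → F) :
    Cfsg.sympForm 4 F ((S.P a - S.P b) *ᵥ x) ((S.P a - S.P b) *ᵥ y) =
      2 * Cfsg.sympForm 4 F x y := by
  have hA : ∀ v w, Cfsg.sympForm 4 F (S.P a *ᵥ v) w = Cfsg.sympForm 4 F v (S.P a *ᵥ w) :=
    fun v w => by
      conv_lhs => rw [← S.isom a]
      rw [Matrix.mulVec_mulVec, S.sq_of_singular ha, Matrix.one_mulVec]
  have hB : ∀ v w, Cfsg.sympForm 4 F (S.P b *ᵥ v) w = Cfsg.sympForm 4 F v (S.P b *ᵥ w) :=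
    fun v w => by
      conv_lhs => rw [← S.isom b]
      rw [Matrix.mulVec_mulVec, S.sq_of_singular hb, Matrix.one_mulVec]
  rw [sympForm_expand, S.isom, S.isom, hA x, hB x, Matrix.mulVec_mulVec, Matrix.mulVec_mulVec,
    S.anti_of_B hab, Matrix.neg_mulVec, sympForm_neg_right]
  ring

/-- A difference of two anticommuting involutions permutes the labels. -/
theorem sub_label {c d : V6} (hc : S.q c = 0) (hd : S.q d = 0) (hcd : S.B c d = 1) (v : V6) :
    ∃ (w : V6) (k : F), (S.P c - S.P d) * S.P v = k • (S.P w * (S.P c - S.P d)) := by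
  by_cases h : S.B c v = S.B d v
  · refine ⟨v, sgn F (S.B c v), ?_⟩
    rw [Matrix.sub_mul, Matrix.mul_sub, S.comm c v, S.comm d v, ← h, smul_sub]
  · obtain ⟨k₁, hk₁0, hk₁⟩ := S.P_add_coeff v c
    obtain ⟨k₂, hk₂0, hk₂⟩ := S.P_add_coeff (v + c) d
    refine ⟨v + c + d, sgn F (S.B c v) * (k₂ * k₁)⁻¹ * (-1), ?_⟩
    have hp : S.P (v + c + d) * (S.P c - S.P d) =
        (k₂ * k₁) • (-(S.P v * (S.P c + S.P d))) := by
      rw [hk₂, hk₁, Matrix.smul_mul, Matrix.smul_mul, Matrix.smul_mul, smul_smul]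
      congr 1
      rw [mul_assoc, mul_assoc, Matrix.mul_sub, Matrix.mul_sub, S.sq_of_singular hd,
        S.anti_of_B ((S.sk d c).trans hcd)]
      rw [Matrix.mul_neg, ← mul_assoc (S.P c) (S.P c), S.sq_of_singular hc, one_mul, mul_one]
      noncomm_ring
    rw [hp, smul_smul, mul_assoc (sgn F (S.B c v)), mul_comm ((k₂ * k₁)⁻¹), mul_assoc, mul_assoc,
      inv_mul_cancel₀ (mul_ne_zero hk₂0 hk₁0), mul_one]
    have hd' : sgn F (S.B d v) = -sgn F (S.B c v) := by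
      have : ∀ x y : ZMod 2, x ≠ y → y = x + 1 := by decide
      rw [this _ _ h, sgn_add, sgn_one, mul_neg, mul_one]
    rw [Matrix.sub_mul, S.comm c v, S.comm d v, hd', Matrix.mul_add]
    module

/-- The element exchanging two of four pairwise anticommuting involutions. -/
theorem exists_swap (h2 : (2 : F) ≠ 0) {a b c d : V6} (ha : S.q a = 0) (hb : S.q b = 0)
    (hc : S.q c = 0) (hd : S.q d = 0) (hab : S.B a b = 1) (hac : S.B a c = 1) (had : S.B a d = 1)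
    (hcd : S.B c d = 1) :
    ∃ g ∈ S.N, (g : 𝕄) * S.P a = (1 : F) • (S.P b * (g : 𝕄)) := by
  have hsq : ∀ {x y : V6}, S.q x = 0 → S.q y = 0 → S.B x y = 1 →
      (S.P x - S.P y) * (S.P x - S.P y) = (2 : F) • (1 : 𝕄) := by
    intro x y hx hy hxy
    rw [Matrix.sub_mul, Matrix.mul_sub, Matrix.mul_sub, S.sq_of_singular hx, S.sq_of_singular hy,
      S.anti_of_B hxy, two_smul]
    abel
  set Y : 𝕄 := (2 : F)⁻¹ • ((S.P a - S.P b) * (S.P c - S.P d)) with hY
  set Z : 𝕄 := (2 : F)⁻¹ • ((S.P c - S.P d) * (S.P a - S.P b)) with hZ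
  have hYZ : Y * Z = 1 := by
    rw [hY, hZ, Matrix.smul_mul, Matrix.mul_smul, mul_assoc (S.P a - S.P b),
      ← mul_assoc (S.P c - S.P d), hsq hc hd hcd, Matrix.smul_mul, one_mul, Matrix.mul_smul,
      hsq ha hb hab, smul_smul, smul_smul, smul_smul,
      show (2 : F)⁻¹ * (2 : F)⁻¹ * 2 * 2 = 1 by field_simp, one_smul]
  let g : GL I8 F := ⟨Y, Z, hYZ, mul_eq_one_comm.1 hYZ⟩
  refine ⟨g, ⟨fun x y => ?_, fun v => ?_⟩, ?_⟩
  · show Cfsg.sympForm 4 F (Y *ᵥ x) (Y *ᵥ y) = Cfsg.sympForm 4 F x y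
    rw [hY, Matrix.smul_mulVec, Matrix.smul_mulVec, sympForm_smul_smul, ← Matrix.mulVec_mulVec,
      ← Matrix.mulVec_mulVec, S.sympForm_sub ha hb hab, S.sympForm_sub hc hd hcd]
    field_simp
  · obtain ⟨w, k, hw⟩ := S.sub_label hc hd hcd v
    obtain ⟨w', k', hw'⟩ := S.sub_label ha hb hab w
    refine ⟨w', k * k', ?_⟩
    show Y * S.P v = _ • (S.P w' * Y)
    rw [hY, Matrix.smul_mul, mul_assoc, hw, Matrix.mul_smul, ← mul_assoc, hw', Matrix.smul_mul,
      mul_assoc, Matrix.mul_smul, smul_smul, smul_smul, smul_smul]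
    congr 1
    ring
  · show Y * S.P a = (1 : F) • (S.P b * Y)
    have e1 : (S.P c - S.P d) * S.P a = -(S.P a * (S.P c - S.P d)) := by
      rw [Matrix.sub_mul, Matrix.mul_sub, S.anti_of_B ((S.sk c a).trans hac),
        S.anti_of_B ((S.sk d a).trans had)]
      abel
    have e2 : (S.P a - S.P b) * S.P a = -(S.P b * (S.P a - S.P b)) := by
      rw [Matrix.sub_mul, Matrix.mul_sub, S.sq_of_singular ha, S.sq_of_singular hb]
      abel
    rw [one_smul, hY, Matrix.smul_mul, mul_assoc, e1, Matrix.mul_neg, ← mul_assoc, e2,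
      Matrix.neg_mul, neg_neg, mul_assoc, Matrix.mul_smul]

/-- Transitivity on the non-zero singular labels. -/
theorem singular_transitive (h2 : (2 : F) ≠ 0) {a b : V6} (ha : a ≠ 0) (hb : b ≠ 0)
    (hqa : S.q a = 0) (hqb : S.q b = 0) :
    ∃ g ∈ S.N, ∃ c : F, (g : 𝕄) * S.P a = c • (S.P b * (g : 𝕄)) := by
  have h11 : (1 : ZMod 2) + 1 = 0 := by decide
  have key : ∀ {a b : V6}, S.q a = 0 → S.q b = 0 → S.B a b = 1 →
      ∃ g ∈ S.N, (g : 𝕄) * S.P a = (1 : F) • (S.P b * (g : 𝕄)) := by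
    intro a b hqa hqb hab
    obtain ⟨z, hz⟩ := S.exists_five hqa hqb hab
    have hr : S.q (z 0 + z 1) = 1 := by
      rw [S.q_add, hz.q_z, hz.q_z, hz.B_z 0 1 (by decide), zero_add, zero_add]
    have hr' : S.q (z 1 + z 2) = 1 := by
      rw [S.q_add, hz.q_z, hz.q_z, hz.B_z 1 2 (by decide), zero_add, zero_add]
    refine S.exists_swap h2 (c := a + b + (z 0 + z 1)) (d := a + b + (z 1 + z 2)) hqa hqb ?_ ?_ hab
      ?_ ?_ ?_
    · simp [S.q_add, hqa, hqb, hab, hr, hz.q_z, hz.B_a, hz.B_u, hz.B_z, h11]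
    · simp [S.q_add, hqa, hqb, hab, hr', hz.q_z, hz.B_a, hz.B_u, hz.B_z, h11]
    · simp [S.B_self, hab, hz.B_a]
    · simp [S.B_self, hab, hz.B_a]
    · simp [S.B_self, hab, (S.sk b a).trans hab, hz.B_a, hz.B_u, hz.B_z, S.sk (z 0) a, S.sk (z 1) a,
        S.sk (z 2) a, S.sk (z 0) b, S.sk (z 1) b, S.sk (z 2) b, h11]
  by_cases hab : a = b
  · exact ⟨1, one_mem _, 1, by simp [hab]⟩
  by_cases h1 : S.B a b = 1
  · obtain ⟨g, hg, e⟩ := key hqa hqb h1
    exact ⟨g, hg, 1, e⟩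
  have dich : ∀ c : ZMod 2, c ≠ 1 → c = 0 := by decide
  have h0 : S.B a b = 0 := dich _ h1
  obtain ⟨w, haw, hbw⟩ : ∃ w, S.B a w = 1 ∧ S.B b w = 1 := by
    obtain ⟨w₁, hw₁⟩ := S.exists_B_one ha
    obtain ⟨w₂, hw₂⟩ := S.exists_B_one hb
    by_cases h : S.B b w₁ = 1
    · exact ⟨w₁, hw₁, h⟩
    by_cases h' : S.B a w₂ = 1
    · exact ⟨w₂, h', hw₂⟩
    exact ⟨w₁ + w₂, by rw [map_add, hw₁, dich _ h', add_zero],
      by rw [map_add, hw₂, dich _ h, zero_add]⟩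
  obtain ⟨u, hqu, hau, hbu⟩ : ∃ u, S.q u = 0 ∧ S.B a u = 1 ∧ S.B b u = 1 := by
    by_cases hq : S.q w = 0
    · exact ⟨w, hq, haw, hbw⟩
    · refine ⟨w + a, ?_, by rw [map_add, haw, S.B_self, add_zero],
        by rw [map_add, hbw, S.sk b a, h0, add_zero]⟩
      have dich' : ∀ c : ZMod 2, c ≠ 0 → c = 1 := by decide
      rw [S.q_add, dich' _ hq, hqa, S.sk, haw, add_zero, h11]
  obtain ⟨g, hg, e⟩ := key hqa hqu hau
  obtain ⟨g', hg', e'⟩ := key hqu hqb ((S.sk u b).trans hbu)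
  refine ⟨g' * g, mul_mem hg' hg, 1, ?_⟩
  rw [one_smul] at e e' ⊢
  rw [Units.val_mul, mul_assoc, e, ← mul_assoc, e', mul_assoc]

end Sys

end CfsgLib.Geometric.PauliMinus
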