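import Cfsg.Agent.Lib.Geometric.PauliMinus.SplitDef
import Cfsg.Agent.Lib.Geometric.PauliMinus.Transitive

/-!
Diagonal elements in adapted coordinates lying in the normaliser of a system of minus type.
-/

set_option autoImplicit false
set_option linter.unusedSectionVars false

namespace CfsgLib.Geometric.PauliMinus

open Matrix
open CfsgLib.Geometric.PauliMax (V6 sgn sgn_zero sgn_one two_torsion add_eq_zero_iff')
open CfsgLib.PauliFour (Anti adj mem_spGL_of_adj)

variable {F : Type*} [Field F]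

local notation "𝕄" => Matrix I8 I8 F
local notation "M₄" => Matrix I4 I4 F

namespace Sys

variable (S : Sys F)

theorem exists_singular_pair {a : V6} (ha : a ≠ 0) (hqa : S.q a = 0) :
    ∃ u, S.q u = 0 ∧ S.B a u = 1 := by
  obtain ⟨w, hw⟩ := S.exists_B_one ha
  by_cases hq : S.q w = 0
  · exact ⟨w, hq, hw⟩
  · refine ⟨w + a, ?_, by rw [map_add, hw, S.B_self, add_zero]⟩
    have dich : ∀ c : ZMod 2, c ≠ 0 → c = 1 := by decide
    rw [S.q_add, dich _ hq, hqa, S.sk, hw]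
    decide

/-- The product of two scaled differences lies in the normaliser. -/
theorem exists_subProd (h2 : (2 : F) ≠ 0) {a b c d : V6} (ha : S.q a = 0) (hb : S.q b = 0)
    (hc : S.q c = 0) (hd : S.q d = 0) (hab : S.B a b = 1) (hcd : S.B c d = 1) :
    ∃ g ∈ S.N, (g : 𝕄) = (2 : F)⁻¹ • ((S.P a - S.P b) * (S.P c - S.P d)) := by
  have hsq : ∀ {x y : V6}, S.q x = 0 → S.q y = 0 → S.B x y = 1 →
      (S.P x - S.P y) * (S.P x - S.P y) = (2 : F) • (1 : 𝕄) := by
    intro x y hx hy hxy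
    rw [Matrix.sub_mul, Matrix.mul_sub, Matrix.mul_sub, S.sq_of_singular hx, S.sq_of_singular hy,
      S.anti_of_B hxy, two_smul]
    abel
  set Y : 𝕄 := (2 : F)⁻¹ • ((S.P a - S.P b) * (S.P c - S.P d)) with hY
  set Z : 𝕄 := (2 : F)⁻¹ • ((S.P c - S.P d) * (S.P a - S.P b)) with hZ
  have hYZ : Y * Z = 1 := by
    rw [hY, hZ, Matrix.smul_mul, Matrix.mul_smul, mul_assoc (S.P a - S.P b),
      ← mul_assoc (S.P c - S.P d), hsq hc hd hcd, Matrix.smul_mul, one_mul, Matrix.mul_smul,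
      hsq ha hb hab, smul_smul, smul_smul, smul_smul,
      show (2 : F)⁻¹ * (2 : F)⁻¹ * 2 * 2 = 1 by field_simp, one_smul]
  refine ⟨⟨Y, Z, hYZ, mul_eq_one_comm.1 hYZ⟩, ⟨fun x y => ?_, fun v => ?_⟩, rfl⟩
  · show Cfsg.sympForm 4 F (Y *ᵥ x) (Y *ᵥ y) = Cfsg.sympForm 4 F x y
    rw [hY, Matrix.smul_mulVec, Matrix.smul_mulVec, sympForm_smul_smul, ← Matrix.mulVec_mulVec,
      ← Matrix.mulVec_mulVec, S.sympForm_sub ha hb hab, S.sympForm_sub hc hd hcd]
    field_simp
  · obtain ⟨w, k, hw⟩ := S.sub_label hc hd hcd v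
    obtain ⟨w', k', hw'⟩ := S.sub_label ha hb hab w
    refine ⟨w', k * k', ?_⟩
    show Y * S.P v = _ • (S.P w' * Y)
    rw [hY, Matrix.smul_mul, mul_assoc, hw, Matrix.mul_smul, ← mul_assoc, hw', Matrix.smul_mul,
      mul_assoc, Matrix.mul_smul, smul_smul, smul_smul, smul_smul]
    congr 1
    ring

end Sys

namespace Split

variable {S : Sys F} {a u : V6} (sp : Split S a u)

theorem z_mem_span (i : Fin 5) : sp.z i ∈ Submodule.span (ZMod 2) ({a} ∪ Set.range sp.z) :=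
  Submodule.subset_span (Or.inr ⟨i, rfl⟩)

/-- The labels orthogonal to `a` are spanned by `a` and the five. -/
theorem mem_span_of_B {w : V6} (hw : S.B a w = 0) :
    w ∈ Submodule.span (ZMod 2) ({a} ∪ Set.range sp.z) := by
  have hle : Submodule.span (ZMod 2) ({a} ∪ Set.range sp.z) ≤ LinearMap.ker (S.B a) := by
    rw [Submodule.span_le]
    rintro x (rfl | ⟨i, rfl⟩)
    · exact S.B_self _
    · exact sp.five.B_a i
  have htop : w ∈ Submodule.span (ZMod 2) (insert u ({a} ∪ Set.range sp.z)) := by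
    have : ({a, u} : Set V6) ∪ Set.range sp.z = insert u ({a} ∪ Set.range sp.z) := by
      ext x
      simp only [Set.mem_union, Set.mem_insert_iff, Set.mem_singleton_iff]
      tauto
    rw [← this, sp.span_eq]
    exact Submodule.mem_top
  obtain ⟨c, y, hy, rfl⟩ := Submodule.mem_span_insert.1 htop
  rw [map_add, map_smul, sp.five.B_au, LinearMap.mem_ker.1 (hle hy), add_zero, smul_eq_mul,
    mul_one] at hw
  rwa [hw, zero_smul, zero_add]

/-- The labels orthogonal to `a` give block diagonal matrices with proportional blocks. -/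
theorem exists_diag {w : V6} (hw : S.B a w = 0) :
    ∃ (Y : M₄) (s : F), (s = 1 ∨ s = -1) ∧ sp.Φ (S.P w) = fromBlocks Y 0 0 (s • Y) := by
  have hmem := sp.mem_span_of_B hw
  clear hw
  induction hmem using Submodule.span_induction with
  | mem x hx =>
    rcases hx with rfl | ⟨i, rfl⟩
    · exact ⟨1, -1, Or.inr rfl, by rw [sp.P_a, neg_one_smul]⟩
    · exact ⟨sp.Γ i, 1, Or.inl rfl, by rw [sp.P_z, one_smul]⟩
  | zero => exact ⟨1, 1, Or.inl rfl, by rw [S.zero, map_one, one_smul, fromBlocks_one]⟩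
  | add x y _ _ hx hy =>
    obtain ⟨Y, s, hs, hY⟩ := hx
    obtain ⟨Y', s', hs', hY'⟩ := hy
    obtain ⟨k, -, hk⟩ := S.P_add_coeff x y
    refine ⟨k • (Y * Y'), s * s', ?_, ?_⟩
    · rcases hs with rfl | rfl <;> rcases hs' with rfl | rfl <;> simp
    · rw [hk, map_smul, map_mul, hY, hY', fromBlocks_multiply, fromBlocks_smul]
      simp [smul_smul, mul_comm, mul_left_comm]
  | smul c x _ hx =>
    have dich : c = 0 ∨ c = 1 := by revert c; decide
    rcases dich with rfl | rfl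
    · exact ⟨1, 1, Or.inl rfl, by rw [zero_smul, S.zero, map_one, one_smul, fromBlocks_one]⟩
    · rwa [one_smul]

/-- An element of the four-dimensional isometry group permuting the five gives a diagonal element
of the normaliser. -/
theorem bd_diag_mem_N {A : GL I4 F} (hA : A ∈ Cfsg.spGL 2 F)
    (hperm : ∀ i, ∃ (j : Fin 5) (σ : F), (A : M₄) * sp.Γ i = σ • (sp.Γ j * (A : M₄))) :
    sp.bd (A, A) ∈ S.N := by
  refine ⟨sp.bd_mem_sp.2 ⟨hA, hA⟩, S.perm_of_closure sp.span_eq fun v hv => ?_⟩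
  rcases hv with (rfl | rfl) | ⟨i, rfl⟩
  · refine ⟨v, 1, sp.Φ_inj ?_⟩
    rw [map_mul, map_smul, map_mul, sp.Φ_bd, sp.P_a, fromBlocks_multiply, fromBlocks_multiply]
    simp
  · refine ⟨v, 1, sp.Φ_inj ?_⟩
    rw [map_mul, map_smul, map_mul, sp.Φ_bd, sp.P_u, fromBlocks_multiply, fromBlocks_multiply]
    simp
  · obtain ⟨j, σ, h⟩ := hperm i
    refine ⟨sp.z j, σ, sp.Φ_inj ?_⟩
    rw [map_mul, map_smul, map_mul, sp.Φ_bd, sp.P_z, sp.P_z, fromBlocks_multiply,
      fromBlocks_multiply, fromBlocks_smul]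
    simp [h]

/-- One of the five as an element of the four-dimensional group. -/
def gam (i : Fin 5) : GL I4 F := ⟨sp.Γ i, sp.Γ i, sp.anti.sq i, sp.anti.sq i⟩

@[simp] theorem coe_gam (i : Fin 5) : ((sp.gam i : GL I4 F) : M₄) = sp.Γ i := rfl

theorem gam_mem_sp (i : Fin 5) : sp.gam i ∈ Cfsg.spGL 2 F :=
  mem_spGL_of_adj (g := sp.gam i) (by
    show adj (sp.Γ i) * sp.Γ i = 1
    rw [sp.adj_eq, sp.anti.sq])

theorem bd_one_gam_mem_N (i : Fin 5) : sp.bd (1, sp.gam i) ∈ S.N := by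
  refine ⟨sp.bd_mem_sp.2 ⟨one_mem _, sp.gam_mem_sp i⟩, S.perm_of_closure sp.span_eq fun v hv => ?_⟩
  rcases hv with (rfl | rfl) | ⟨j, rfl⟩
  · refine ⟨v, 1, sp.Φ_inj ?_⟩
    rw [map_mul, map_smul, map_mul, sp.Φ_bd, sp.P_a, fromBlocks_multiply, fromBlocks_multiply]
    simp
  · obtain ⟨k, hk0, hk⟩ := S.P_add_coeff (sp.z i) v
    refine ⟨sp.z i + v, k⁻¹, sp.Φ_inj ?_⟩
    rw [hk, smul_mul_assoc, smul_smul, inv_mul_cancel₀ hk0, one_smul, map_mul, map_mul, map_mul,
      sp.Φ_bd, sp.P_u, sp.P_z, fromBlocks_multiply, fromBlocks_multiply, fromBlocks_multiply]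
    simp [sp.anti.sq]
  · by_cases hij : i = j
    · subst hij
      refine ⟨sp.z i, 1, sp.Φ_inj ?_⟩
      rw [map_mul, map_smul, map_mul, sp.Φ_bd, sp.P_z, fromBlocks_multiply, fromBlocks_multiply]
      simp
    · obtain ⟨k, hk0, hk⟩ := S.P_add_coeff (sp.z j) a
      refine ⟨sp.z j + a, k⁻¹, sp.Φ_inj ?_⟩
      rw [hk, smul_mul_assoc, smul_smul, inv_mul_cancel₀ hk0, one_smul, map_mul, map_mul, map_mul,
        sp.Φ_bd, sp.P_a, sp.P_z, fromBlocks_multiply, fromBlocks_multiply, fromBlocks_multiply]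
      simp [sp.anti.anti i j hij]

end Split

end CfsgLib.Geometric.PauliMinus
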