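import Mathlib.GroupTheory.Perm.Basic
import Mathlib.Data.Fintype.Perm
import Mathlib.Tactic.Linarith

/-!
Permutations of five points: every non-trivial one leads, by a commutator with a double
transposition, to one with a fixed point acting outside the four-group on the other points.
-/

set_option autoImplicit false

namespace CfsgLib.Geometric.PauliMinus

/-- A permutation with a fixed point `k` sending some pair away from `k` to a pair meeting it in
one point. -/
def BadPerm (f : Equiv.Perm (Fin 5)) : Prop :=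
  ∃ k i j : Fin 5, i ≠ j ∧ i ≠ k ∧ j ≠ k ∧ f k = k ∧
    ((f i = i ∧ f j ≠ j) ∨ (f i = j ∧ f j ≠ i))

instance (f : Equiv.Perm (Fin 5)) : Decidable (BadPerm f) := by
  unfold BadPerm
  infer_instance

/-- The double transpositions. -/
def quads : List (Fin 5 × Fin 5 × Fin 5 × Fin 5) :=
  [(0, 1, 2, 3), (0, 2, 1, 3), (0, 3, 1, 2), (0, 1, 2, 4), (0, 2, 1, 4), (0, 4, 1, 2),
   (0, 1, 3, 4), (0, 3, 1, 4), (0, 4, 1, 3), (0, 2, 3, 4), (0, 3, 2, 4), (0, 4, 2, 3),
   (1, 2, 3, 4), (1, 3, 2, 4), (1, 4, 2, 3)]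

/-- The double transposition of a quadruple. -/
def dswap (t : Fin 5 × Fin 5 × Fin 5 × Fin 5) : Equiv.Perm (Fin 5) :=
  Equiv.swap t.1 t.2.1 * Equiv.swap t.2.2.1 t.2.2.2

theorem quads_ne : ∀ t ∈ quads, t.1 ≠ t.2.1 ∧ t.2.2.1 ≠ t.2.2.2 := by decide

theorem eq_one_or_bad : ∀ f : Equiv.Perm (Fin 5),
    f = 1 ∨ BadPerm f ∨ ∃ t ∈ quads, BadPerm (f * dswap t * f⁻¹ * dswap t) := by
  decide +kernel

end CfsgLib.Geometric.PauliMinus
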