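import Cfsg.Agent.Lib.Geometric.PauliMinus.SplitDef
import Cfsg.Agent.Lib.Geometric.Symp
import Cfsg.Agent.Lib.Forms.Symplectic

/-!
An anticommuting pair of involutions of a system of minus type gives adapted coordinates.
-/

set_option autoImplicit false
set_option linter.unusedSectionVars false
set_option linter.style.haveILetI false

namespace CfsgLib.Geometric.PauliMinus

open Matrix Module
open CfsgLib.Geometric.PauliMax (V6 sgn_zero)
open CfsgLib.PauliFour (Anti adj adj_eq_inv_of_mem)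

variable {F : Type*} [Field F]

local notation "𝕄" => Matrix I8 I8 F
local notation "M₄" => Matrix I4 I4 F

/-- Inverting two blocks. -/
private theorem split_equiv (h2 : (2 : F) ≠ 0)
    (A U : Module.End F (I8 → F)) (hA : ∀ x, A (A x) = x) (hU : ∀ x, U (U x) = x)
    (hAU : ∀ x, A (U x) = - U (A x)) :
    ∃ L : (↥(LinearMap.eqLocus A LinearMap.id) × ↥(LinearMap.eqLocus A LinearMap.id)) ≃ₗ[F]
      (I8 → F), ∀ p, L p = (p.1 : I8 → F) + U (p.2 : I8 → F) := by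
  have hmem : ∀ z, A z = z ↔ z ∈ LinearMap.eqLocus A LinearMap.id := fun z => Iff.rfl
  let L : (↥(LinearMap.eqLocus A LinearMap.id) × ↥(LinearMap.eqLocus A LinearMap.id)) →ₗ[F] (I8 → F) :=
    (LinearMap.eqLocus A LinearMap.id).subtype.coprod
      (U.comp (LinearMap.eqLocus A LinearMap.id).subtype)
  refine ⟨LinearEquiv.ofBijective L ⟨?_, ?_⟩, fun p => rfl⟩
  · intro p q h
    have h' : (p.1 : I8 → F) + U (p.2 : I8 → F) = (q.1 : I8 → F) + U (q.2 : I8 → F) := h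
    have hA' := congrArg A h'
    simp only [map_add, (hmem _).2 p.1.2, (hmem _).2 q.1.2, hAU, (hmem _).2 p.2.2,
      (hmem _).2 q.2.2] at hA'
    have h1 : (2 : F) • (p.1 : I8 → F) = (2 : F) • (q.1 : I8 → F) := by
      rw [two_smul, two_smul]
      calc (p.1 : I8 → F) + (p.1 : I8 → F) = ((p.1 : I8 → F) + U (p.2 : I8 → F)) +
            ((p.1 : I8 → F) + -U (p.2 : I8 → F)) := by abel
        _ = ((q.1 : I8 → F) + U (q.2 : I8 → F)) + ((q.1 : I8 → F) + -U (q.2 : I8 → F)) := by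
          rw [h', hA']
        _ = (q.1 : I8 → F) + (q.1 : I8 → F) := by abel
    have h1' : (p.1 : I8 → F) = (q.1 : I8 → F) := smul_right_injective _ h2 h1
    rw [h1'] at h'
    have h2' := congrArg U (add_left_cancel h')
    rw [hU, hU] at h2'
    exact Prod.ext (Subtype.ext h1') (Subtype.ext h2')
  · intro z
    refine ⟨(⟨(2 : F)⁻¹ • (z + A z), (hmem _).1 ?_⟩,
      ⟨(2 : F)⁻¹ • (U z - U (A z)), (hmem _).1 ?_⟩), ?_⟩
    · rw [map_smul, map_add, hA, add_comm]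
    · rw [map_smul, map_sub, hAU z, hAU (A z), hA]
      congr 1
      abel
    · show (2 : F)⁻¹ • (z + A z) + U ((2 : F)⁻¹ • (U z - U (A z))) = z
      rw [map_smul, map_sub, hU, hU, ← smul_add, show z + A z + (z - A z) = (2 : F) • z by
        rw [two_smul]; abel, inv_smul_smul₀ h2]

/-- A matrix commuting with the two model matrices has equal diagonal blocks. -/
private theorem diag_of_commute (h2 : (2 : F) ≠ 0) (X : Matrix (I4 ⊕ I4) (I4 ⊕ I4) F)
    (hv : X * fromBlocks 1 0 0 (-1) = fromBlocks 1 0 0 (-1) * X)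
    (hu : X * fromBlocks 0 1 1 0 = fromBlocks 0 1 1 0 * X) :
    X = fromBlocks X.toBlocks₁₁ 0 0 X.toBlocks₁₁ := by
  rw [← fromBlocks_toBlocks X] at hv hu
  simp only [fromBlocks_multiply, Matrix.mul_one, Matrix.one_mul, Matrix.mul_zero, Matrix.zero_mul,
    add_zero, zero_add, Matrix.mul_neg, Matrix.neg_mul, fromBlocks_inj] at hv hu
  obtain ⟨-, h12, h21, -⟩ := hv
  have hz : ∀ Y : M₄, -Y = Y → Y = 0 := fun Y h => by
    have : (2 : F) • Y = 0 := by rw [two_smul]; nth_rewrite 1 [← h]; exact neg_add_cancel Y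
    exact (smul_eq_zero.1 this).resolve_left h2
  conv_lhs => rw [← fromBlocks_toBlocks X, hz _ h12, hz _ h21.symm]
  rw [hu.2.1]

/-- Adapted coordinates exist. -/
theorem Split.exists_split (S : Sys F) (h2 : (2 : F) ≠ 0) {a u : V6} (hqa : S.q a = 0)
    (hqu : S.q u = 0) (hau : S.B a u = 1) : Nonempty (Split S a u) := by
  classical
  obtain ⟨z, hz⟩ := S.exists_five hqa hqu hau
  set A := Matrix.toLin' (S.P a) with hAdef
  set U := Matrix.toLin' (S.P u) with hUdef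
  have hA : ∀ x, A (A x) = x := fun x => by
    rw [hAdef, ← Matrix.toLin'_mul_apply, S.sq_of_singular hqa, Matrix.toLin'_one,
      LinearMap.id_apply]
  have hU : ∀ x, U (U x) = x := fun x => by
    rw [hUdef, ← Matrix.toLin'_mul_apply, S.sq_of_singular hqu, Matrix.toLin'_one,
      LinearMap.id_apply]
  have hAU : ∀ x, A (U x) = - U (A x) := fun x => by
    rw [hAdef, hUdef, ← Matrix.toLin'_mul_apply, ← Matrix.toLin'_mul_apply, S.anti_of_B hau,
      map_neg, LinearMap.neg_apply]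
  set E := LinearMap.eqLocus A LinearMap.id with hEdef
  have hfixed : ∀ q : E, A (q : I8 → F) = q := fun q => q.2
  obtain ⟨L, hL⟩ : ∃ L : (↥E × ↥E) ≃ₗ[F] (I8 → F), ∀ p, L p = (p.1 : I8 → F) + U (p.2 : I8 → F) :=
    split_equiv h2 A U hA hU hAU
  -- the forms
  set B₈ : LinearMap.BilinForm F (I8 → F) := Matrix.toBilin' (Matrix.J (Fin 4) F) with hB₈
  set B₄ : LinearMap.BilinForm F (I4 → F) := Matrix.toBilin' (Matrix.J (Fin 2) F) with hB₄
  have h8 : ∀ x y, B₈ x y = Cfsg.sympForm 4 F x y := fun x y => Matrix.toBilin'_apply' _ x y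
  have h4 : ∀ x y, B₄ x y = Cfsg.sympForm 2 F x y := fun x y => Matrix.toBilin'_apply' _ x y
  have hsym8 := CfsgLib.Geometric.isSymplecticForm_sympForm 4 F
  have hsym4 := CfsgLib.Geometric.isSymplecticForm_sympForm 2 F
  have hnd4 : B₄.Nondegenerate := by
    refine ⟨fun x hx => ?_, fun y hy => ?_⟩
    · by_contra h
      obtain ⟨w, hw⟩ := (hsym4.nondegenerate x h).2
      exact hw (by rw [← h4]; exact hx w)
    · by_contra h
      obtain ⟨w, hw⟩ := (hsym4.nondegenerate y h).1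
      exact hw (by rw [← h4]; exact hy w)
  have halt4 : B₄.IsAlt := fun x => by rw [h4]; exact hsym4.alternating x
  have hisoA : ∀ x y, B₈ (A x) (A y) = B₈ x y := fun x y => by
    rw [h8, h8, hAdef, Matrix.toLin'_apply, Matrix.toLin'_apply]; exact S.isom a x y
  have hisoU : ∀ x y, B₈ (U x) (U y) = B₈ x y := fun x y => by
    rw [h8, h8, hUdef, Matrix.toLin'_apply, Matrix.toLin'_apply]; exact S.isom u x y
  have hcross : ∀ p q : E, B₈ (p : I8 → F) (U (q : I8 → F)) = 0 := fun p q => by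
    have h := hisoA (p : I8 → F) (U (q : I8 → F))
    rw [hAU, hfixed, hfixed, map_neg] at h
    exact (mul_eq_zero.1 (show (2 : F) * B₈ (p : I8 → F) (U (q : I8 → F)) = 0 by
      linear_combination -h)).resolve_left h2
  have hcross' : ∀ p q : E, B₈ (U (q : I8 → F)) (p : I8 → F) = 0 := fun p q => by
    rw [h8, hsym8.skew, ← h8, hcross, neg_zero]
  set BE : LinearMap.BilinForm F E := B₈.restrict E with hBE
  have hBEapp : ∀ p q : E, BE p q = B₈ (p : I8 → F) (q : I8 → F) := fun p q => rfl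
  have haltE : BE.IsAlt := fun p => by rw [hBEapp, h8]; exact hsym8.alternating _
  have hsepE : ∀ p : E, (∀ q, BE p q = 0) → p = 0 := by
    intro p hp
    apply Subtype.ext
    by_contra h
    obtain ⟨w, hw⟩ := (hsym8.nondegenerate _ h).2
    apply hw
    obtain ⟨⟨p1, p2⟩, rfl⟩ := L.surjective w
    rw [hL, ← h8, map_add, hcross, add_zero]
    exact hp p1
  have hndE : BE.Nondegenerate :=
    ⟨hsepE, fun q hq => hsepE q fun p => by
      rw [hBEapp, h8, hsym8.skew, ← h8, ← hBEapp, hq p, neg_zero]⟩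
  have hι : Fintype.card I8 = 8 := by simp
  have hE4 : finrank F E = finrank F (I4 → F) := by
    have h := L.finrank_eq
    rw [Module.finrank_prod, Module.finrank_pi, hι] at h
    rw [Module.finrank_pi]
    simp only [Fintype.card_sum, Fintype.card_fin]
    omega
  obtain ⟨e₀, he₀⟩ := CfsgLib.Forms.alt_isometric BE hndE haltE B₄ hnd4 halt4 hE4
  set e := e₀.symm with he
  have heB : ∀ x y, B₈ (e x : I8 → F) (e y : I8 → F) = B₄ x y := fun x y => by
    rw [← hBEapp, ← he₀, he, e₀.apply_symm_apply, e₀.apply_symm_apply]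
  let Ψ : ((I4 ⊕ I4) → F) ≃ₗ[F] (I8 → F) :=
    (LinearEquiv.sumArrowLequivProdArrow I4 I4 F F).trans ((e.prodCongr e).trans L)
  have hΨ : ∀ z, Ψ z = (e (z ∘ Sum.inl) : I8 → F) + U (e (z ∘ Sum.inr) : I8 → F) := fun z =>
    hL ((e.prodCongr e) (LinearEquiv.sumArrowLequivProdArrow I4 I4 F F z))
  have hΨB : ∀ z w, B₈ (Ψ z) (Ψ w) =
      B₄ (z ∘ Sum.inl) (w ∘ Sum.inl) + B₄ (z ∘ Sum.inr) (w ∘ Sum.inr) := fun z w => by
    simp only [hΨ, map_add, LinearMap.add_apply, hcross, hcross', hisoU, heB, add_zero, zero_add]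
  let Φ : 𝕄 ≃ₐ[F] Matrix (I4 ⊕ I4) (I4 ⊕ I4) F :=
    Matrix.toLinAlgEquiv'.trans ((Ψ.symm.conjAlgEquiv F).trans LinearMap.toMatrixAlgEquiv')
  have hΦ : ∀ X z, Ψ (Matrix.mulVec (Φ X) z) = Matrix.mulVec X (Ψ z) := fun X z => by
    have : Matrix.mulVec (Φ X) z = Ψ.symm (Matrix.mulVec X (Ψ z)) := by
      rw [← Matrix.toLinAlgEquiv'_apply]
      simp [Φ, Matrix.toLinAlgEquiv'_apply]
    rw [this, LinearEquiv.apply_symm_apply]
  have hext : ∀ X Y, (∀ z, Matrix.mulVec X (Ψ z) = Ψ (Matrix.mulVec Y z)) → Φ X = Y := fun X Y h =>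
    Matrix.ext_of_mulVec_single fun i => Ψ.injective (by rw [hΦ, h])
  have hfb : ∀ (a b c d : M₄) (z : I4 ⊕ I4 → F),
      (Matrix.mulVec (fromBlocks a b c d) z) ∘ Sum.inl = a *ᵥ (z ∘ Sum.inl) + b *ᵥ (z ∘ Sum.inr) ∧
      (Matrix.mulVec (fromBlocks a b c d) z) ∘ Sum.inr = c *ᵥ (z ∘ Sum.inl) + d *ᵥ (z ∘ Sum.inr) := by
    intro a b c d z
    rw [fromBlocks_mulVec]
    exact ⟨rfl, rfl⟩
  have hPa : Φ (S.P a) = fromBlocks 1 0 0 (-1) := by
    refine hext _ _ fun z => ?_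
    obtain ⟨h1, h2'⟩ := hfb 1 0 0 (-1) z
    rw [← Matrix.toLin'_apply, ← hAdef, hΨ, hΨ, h1, h2', map_add, hAU, hfixed, hfixed]
    simp [Matrix.neg_mulVec]
  have hPu : Φ (S.P u) = fromBlocks 0 1 1 0 := by
    refine hext _ _ fun z => ?_
    obtain ⟨h1, h2'⟩ := hfb 0 1 1 0 z
    rw [← Matrix.toLin'_apply, ← hUdef, hΨ, hΨ, h1, h2', map_add, hU]
    simp [add_comm]
  have hmem : ∀ (g : GL I8 F) (A B : GL I4 F),
      Φ (g : 𝕄) = fromBlocks (A : M₄) 0 0 (B : M₄) →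
        (g ∈ Cfsg.spGL 4 F ↔ A ∈ Cfsg.spGL 2 F ∧ B ∈ Cfsg.spGL 2 F) := by
    intro g A B hg
    have hgf : ∀ z w, Cfsg.sympForm 4 F ((g : 𝕄) *ᵥ Ψ z) ((g : 𝕄) *ᵥ Ψ w) =
        Cfsg.sympForm 2 F ((A : M₄) *ᵥ (z ∘ Sum.inl)) ((A : M₄) *ᵥ (w ∘ Sum.inl)) +
          Cfsg.sympForm 2 F ((B : M₄) *ᵥ (z ∘ Sum.inr)) ((B : M₄) *ᵥ (w ∘ Sum.inr)) := by
      intro z w
      rw [← hΦ, ← hΦ, ← h8, hΨB, hg, (hfb _ _ _ _ z).1, (hfb _ _ _ _ z).2, (hfb _ _ _ _ w).1,
        (hfb _ _ _ _ w).2, h4, h4]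
      simp
    have hf : ∀ z w, Cfsg.sympForm 4 F (Ψ z) (Ψ w) =
        Cfsg.sympForm 2 F (z ∘ Sum.inl) (w ∘ Sum.inl) +
          Cfsg.sympForm 2 F (z ∘ Sum.inr) (w ∘ Sum.inr) := fun z w => by
      rw [← h8, hΨB, h4, h4]
    have h00 : ∀ x : I4 → F, Cfsg.sympForm 2 F x 0 = 0 := fun x => by simp [Cfsg.sympForm]
    constructor
    · intro h
      constructor
      · intro x y
        have e := (hgf (Sum.elim x 0) (Sum.elim y 0)).symm.trans
          ((h (Ψ (Sum.elim x 0)) (Ψ (Sum.elim y 0))).trans (hf _ _))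
        simp only [Sum.elim_comp_inl, Sum.elim_comp_inr, Matrix.mulVec_zero, h00, add_zero] at e
        exact e
      · intro x y
        have e := (hgf (Sum.elim 0 x) (Sum.elim 0 y)).symm.trans
          ((h (Ψ (Sum.elim 0 x)) (Ψ (Sum.elim 0 y))).trans (hf _ _))
        simp only [Sum.elim_comp_inl, Sum.elim_comp_inr, Matrix.mulVec_zero, h00, zero_add] at e
        exact e
    · rintro ⟨hA', hB'⟩ x y
      obtain ⟨z, rfl⟩ := Ψ.surjective x
      obtain ⟨w, rfl⟩ := Ψ.surjective y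
      show Cfsg.sympForm 4 F ((g : 𝕄) *ᵥ Ψ z) ((g : 𝕄) *ᵥ Ψ w) = _
      rw [hgf, hf]
      exact congrArg₂ (· + ·) (hA' _ _) (hB' _ _)
  set Γ : Fin 5 → M₄ := fun i => (Φ (S.P (z i))).toBlocks₁₁ with hΓ
  have hPz : ∀ i, Φ (S.P (z i)) = fromBlocks (Γ i) 0 0 (Γ i) := fun i => by
    refine diag_of_commute h2 _ ?_ ?_
    · rw [← hPa, ← map_mul, ← map_mul,
        S.commute_of_B ((S.sk (z i) a).trans (hz.B_a i))]
    · rw [← hPu, ← map_mul, ← map_mul,
        S.commute_of_B ((S.sk (z i) u).trans (hz.B_u i))]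
  have hblock : ∀ a b : M₄, fromBlocks a 0 0 a = fromBlocks b 0 0 b → a = b :=
    fun a b h => (fromBlocks_inj.1 h).1
  have hsq : ∀ i, Γ i * Γ i = 1 := fun i => by
    refine hblock _ _ ?_
    rw [fromBlocks_one, ← map_one Φ, ← S.sq_of_singular (hz.q_z i), map_mul, hPz,
      fromBlocks_multiply]
    simp
  have hanti : Anti Γ := ⟨hsq, fun i j hij => by
    have h := congrArg Φ (S.anti_of_B (hz.B_z i j hij))
    rw [map_neg, map_mul, map_mul, hPz, hPz, fromBlocks_multiply, fromBlocks_multiply,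
      fromBlocks_neg] at h
    simpa using (fromBlocks_inj.1 h).1⟩
  have hadj : ∀ i, adj (Γ i) = Γ i := fun i => by
    let G : GL I4 F := ⟨Γ i, Γ i, hsq i, hsq i⟩
    have hG : G ∈ Cfsg.spGL 2 F := ((hmem (S.gl (z i)) G G (hPz i)).1 (S.gl_mem_sp _)).1
    exact adj_eq_inv_of_mem (g := G) hG
  exact ⟨⟨Φ, z, Γ, hz, hanti, hadj, hPa, hPu, hPz, hmem⟩⟩

end CfsgLib.Geometric.PauliMinus
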