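import Cfsg.Agent.Lib.Geometric.PauliMinus.LocalLemmas
import Cfsg.Agent.Lib.Geometric.PauliMinus.PermFive
import Cfsg.Agent.Lib.Geometric.PauliMinus.Split

/-!
The centraliser of an involution with singular label, when all projections are small, normalises
the system.
-/

set_option autoImplicit false
set_option linter.unusedSectionVars false

namespace CfsgLib.Geometric.PauliMinus

open Matrix
open CfsgLib.Geometric.PauliMax (V6 sgn sgn_zero sgn_one two_torsion add_eq_zero_iff')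
open CfsgLib.PauliFour (Anti adj)

variable {F : Type*} [Field F]

local notation "𝕄" => Matrix I8 I8 F
local notation "M₄" => Matrix I4 I4 F

theorem neg_eq_zero_of (h2 : (2 : F) ≠ 0) {ι : Type} {X : Matrix ι ι F} (h : X = -X) : X = 0 := by
  have : (2 : F) • X = 0 := by rw [two_smul]; nth_rewrite 2 [h]; exact add_neg_cancel X
  exact (smul_eq_zero.1 this).resolve_left h2

/-- Small at every singular label. -/
def AllSmall (S : Sys F) (M : Subgroup (GL I8 F)) : Prop :=
  ∀ k u : V6, ∀ sp : Split S k u, sp.Small M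

/-- An element commuting with an involution of singular label sends the labels orthogonal to it to
labels, on the `+1`-eigenspace. -/
theorem Sys.proj_of_small (S : Sys F) (h2 : (2 : F) ≠ 0) {M : Subgroup (GL I8 F)}
    (hsm : AllSmall S M) {k : V6} (hk : k ≠ 0) (hqk : S.q k = 0) {g : GL I8 F} (hg : g ∈ M)
    (hgk : (g : 𝕄) * S.P k = S.P k * (g : 𝕄)) {w : V6} (hw : S.B k w = 0) :
    ∃ (w' : V6) (c : F), (g : 𝕄) * S.P w * (1 + S.P k) =
      c • (S.P w' * ((g : 𝕄) * (1 + S.P k))) := by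
  obtain ⟨u, hqu, hku⟩ := S.exists_singular_pair hk hqk
  obtain ⟨sp⟩ := Split.exists_split S h2 hqk hqu hku
  obtain ⟨A, B, hAB⟩ := sp.exists_bd h2 hgk
  have hA : A ∈ sp.projGroup M := sp.mem_projGroup (B := B) (hAB ▸ hg)
  have hle : Submodule.span (ZMod 2) ({k} ∪ Set.range sp.z) ≤ LinearMap.ker (S.B k) := by
    rw [Submodule.span_le]
    rintro x (rfl | ⟨i, rfl⟩)
    · exact S.B_self _
    · exact sp.five.B_a i
  have hmem := sp.mem_span_of_B hw
  clear hw
  induction hmem using Submodule.span_induction with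
  | mem x hx =>
    rcases hx with rfl | ⟨i, rfl⟩
    · refine ⟨0, 1, ?_⟩
      rw [S.zero, one_mul, one_smul, mul_assoc, mul_add, mul_one, S.sq_of_singular hqk, add_comm]
    · obtain ⟨j, σ, -, hσ⟩ := hsm k u sp A hA i
      refine ⟨sp.z j, σ, sp.Φ_inj ?_⟩
      simp only [map_mul, map_smul, map_add, map_one, sp.P_z, sp.P_a, ← hAB, sp.Φ_bd,
        ← fromBlocks_one, fromBlocks_add, fromBlocks_multiply, fromBlocks_smul]
      simp [hσ, fromBlocks_multiply, fromBlocks_add, fromBlocks_smul, mul_add, smul_add]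
  | zero => exact ⟨0, 1, by rw [S.zero, mul_one, one_mul, one_smul]⟩
  | add x y hx' hy' hx hy =>
    obtain ⟨x', cx, hx⟩ := hx
    obtain ⟨y', cy, hy⟩ := hy
    obtain ⟨κ, -, hκ⟩ := S.P_add_coeff x y
    obtain ⟨l, hl0, hl⟩ := S.P_add_coeff x' y'
    refine ⟨x' + y', κ * (cx * cy) * l⁻¹, ?_⟩
    have hyk : S.P y * (1 + S.P k) = (1 + S.P k) * S.P y := by
      rw [mul_add, add_mul, mul_one, one_mul,
        S.commute_of_B ((S.sk y k).trans (LinearMap.mem_ker.1 (hle hy')))]
    calc (g : 𝕄) * S.P (x + y) * (1 + S.P k)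
        = κ • ((g : 𝕄) * S.P x * (1 + S.P k) * S.P y) := by
          rw [hκ, mul_smul_comm, smul_mul_assoc, mul_assoc (g : 𝕄), mul_assoc (S.P x), hyk]
          simp only [mul_assoc]
      _ = (κ * cx) • (S.P x' * ((g : 𝕄) * S.P y * (1 + S.P k))) := by
          rw [hx, smul_mul_assoc, smul_smul, mul_assoc, mul_assoc, ← hyk, ← mul_assoc (g : 𝕄)]
      _ = (κ * (cx * cy)) • (S.P x' * S.P y' * ((g : 𝕄) * (1 + S.P k))) := by
          rw [hy, mul_smul_comm, smul_smul, ← mul_assoc (S.P x'), mul_assoc κ]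
      _ = _ := by
          rw [hl, smul_mul_assoc, smul_smul, inv_mul_cancel_right₀ hl0]
  | smul c x _ hx =>
    have dich : c = 0 ∨ c = 1 := by revert c; decide
    rcases dich with rfl | rfl
    · exact ⟨0, 1, by rw [zero_smul, S.zero, mul_one, one_mul, one_smul]⟩
    · rwa [one_smul]

namespace Split

variable {S : Sys F} {a u : V6} (sp : Split S a u)

/-- `C` permutes the five as `f`, up to sign. -/
def Realises (C : GL I4 F) (f : Equiv.Perm (Fin 5)) : Prop :=
  ∀ i, ∃ σ : F, (σ = 1 ∨ σ = -1) ∧ (C : M₄) * sp.Γ i = σ • (sp.Γ (f i) * (C : M₄))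

theorem realises_mul {C D : GL I4 F} {f h : Equiv.Perm (Fin 5)} (hC : sp.Realises C f)
    (hD : sp.Realises D h) : sp.Realises (C * D) (f * h) := fun i => by
  obtain ⟨s, hs, e⟩ := hD i
  obtain ⟨t, ht, e'⟩ := hC (h i)
  refine ⟨s * t, ?_, ?_⟩
  · rcases hs with rfl | rfl <;> rcases ht with rfl | rfl <;> simp
  · rw [Units.val_mul, mul_assoc, e, mul_smul_comm, ← mul_assoc, e', smul_mul_assoc, smul_smul,
      mul_assoc]
    rfl

theorem realises_inv {C : GL I4 F} {f : Equiv.Perm (Fin 5)} (hC : sp.Realises C f) :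
    sp.Realises C⁻¹ f⁻¹ := fun i => by
  obtain ⟨s, hs, e⟩ := hC (f⁻¹ i)
  rw [← Equiv.Perm.mul_apply, mul_inv_cancel, Equiv.Perm.one_apply] at e
  refine ⟨s, hs, ?_⟩
  apply (Units.mul_right_inj C).1
  apply (Units.mul_left_inj C).1
  calc (C : M₄) * (((C⁻¹ : GL I4 F) : M₄) * sp.Γ i) * (C : M₄) = sp.Γ i * (C : M₄) := by
        rw [← mul_assoc, Units.mul_inv, one_mul]
    _ = (s * s) • (sp.Γ i * (C : M₄)) := by
        rcases hs with rfl | rfl <;> simp
    _ = s • ((C : M₄) * sp.Γ (f⁻¹ i)) := by rw [e, smul_smul]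
    _ = _ := by
        rw [mul_smul_comm, smul_mul_assoc, ← mul_assoc (C : M₄), mul_assoc _ _ (C : M₄),
          Units.inv_mul, mul_one]

theorem gam_realises (m : Fin 5) : sp.Realises (sp.gam m) 1 := fun i => by
  by_cases h : m = i
  · subst h; exact ⟨1, Or.inl rfl, by simp⟩
  · exact ⟨-1, Or.inr rfl, by simp [sp.anti.anti m i h]⟩

theorem exists_realises (h2 : (2 : F) ≠ 0) {M : Subgroup (GL I8 F)} (hsm : sp.Small M) {A : GL I4 F}
    (hA : A ∈ sp.projGroup M) : ∃ f, sp.Realises A f := by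
  choose f σ hσ e using hsm A hA
  have hinj : Function.Injective f := by
    intro i j hij
    by_contra hne
    have h1 : (A : M₄) * sp.Γ i = (σ i * σ j) • ((A : M₄) * sp.Γ j) := by
      rw [e j, e i, hij, smul_smul]
      congr 1
      rcases hσ j with h | h <;> simp [h]
    rw [← mul_smul_comm] at h1
    have h3 := (Units.mul_right_inj A).1 h1
    have h4 := sp.anti.anti i j hne
    rw [h3, smul_mul_assoc, sp.anti.sq, mul_smul_comm, sp.anti.sq] at h4
    have h5 := neg_eq_zero_of h2 h4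
    rcases hσ i with h | h <;> rcases hσ j with h' | h' <;> simp [h, h'] at h5
  exact ⟨Equiv.ofBijective f (Finite.injective_iff_bijective.1 hinj),
    fun i => ⟨σ i, hσ i, e i⟩⟩

/-- A double transposition is realised by a diagonal element of the normaliser. -/
theorem exists_dswap (h2 : (2 : F) ≠ 0) {i j k l : Fin 5} (hij : i ≠ j) (hkl : k ≠ l) :
    ∃ D : GL I4 F, sp.bd (D, D) ∈ S.N ∧ sp.Realises D (Equiv.swap i j * Equiv.swap k l) := by
  obtain ⟨g, hg, hgv⟩ := S.exists_subProd h2 (sp.five.q_z i) (sp.five.q_z j) (sp.five.q_z k)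
    (sp.five.q_z l) (sp.five.B_z i j hij) (sp.five.B_z k l hkl)
  have hz : ∀ m, S.P (sp.z m) * S.P a = S.P a * S.P (sp.z m) := fun m =>
    S.commute_of_B ((S.sk _ _).trans (sp.five.B_a m))
  have hgc : (g : 𝕄) * S.P a = S.P a * (g : 𝕄) := by
    rw [hgv, smul_mul_assoc, mul_smul_comm]
    congr 1
    simp only [sub_mul, mul_sub, mul_assoc, hz]
    simp only [← mul_assoc, hz]
  obtain ⟨A, B, rfl⟩ := sp.exists_bd h2 hgc
  have hv : fromBlocks (A : M₄) 0 0 (B : M₄) =
      fromBlocks ((2 : F)⁻¹ • ((sp.Γ i - sp.Γ j) * (sp.Γ k - sp.Γ l))) 0 0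
        ((2 : F)⁻¹ • ((sp.Γ i - sp.Γ j) * (sp.Γ k - sp.Γ l))) := by
    rw [← sp.Φ_bd, hgv, map_smul, map_mul, map_sub, map_sub, sp.P_z, sp.P_z, sp.P_z, sp.P_z]
    simp [sub_eq_add_neg, fromBlocks_add, fromBlocks_neg, fromBlocks_multiply, fromBlocks_smul]
  obtain ⟨hA, -, -, hB⟩ := fromBlocks_inj.1 hv
  obtain rfl : A = B := Units.ext (hA.trans hB.symm)
  refine ⟨A, hg, fun m => ⟨1, Or.inl rfl, ?_⟩⟩
  rw [one_smul, hA, Matrix.smul_mul, Matrix.mul_smul, sp.anti.sub_sub_perm hij hkl]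

/-- The core: an element trivial on the first block, commuting with one of the five, moves no pair
to a pair meeting it in one point. -/
theorem pair_moves (h2 : (2 : F) ≠ 0) {M : Subgroup (GL I8 F)} (hsm : AllSmall S M)
    {C : GL I4 F} (hC : sp.bd (1, C) ∈ M) {f : Equiv.Perm (Fin 5)} (hf : sp.Realises C f)
    {k i j : Fin 5} (hij : i ≠ j) (hik : i ≠ k) (hjk : j ≠ k)
    (hCk : (C : M₄) * sp.Γ k = sp.Γ k * (C : M₄)) :
    ∃ t : F, (t = 1 ∨ t = -1) ∧
      sp.Γ (f i) * sp.Γ (f j) * (1 + sp.Γ k) = t • (sp.Γ i * sp.Γ j * (1 + sp.Γ k)) := by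
  have hk0 : sp.z k ≠ 0 := fun h => by
    have h' := sp.five.B_z k i hik.symm
    rw [h, map_zero, LinearMap.zero_apply] at h'
    exact zero_ne_one h'
  have hgk : ((sp.bd (1, C) : GL I8 F) : 𝕄) * S.P (sp.z k) =
      S.P (sp.z k) * ((sp.bd (1, C) : GL I8 F) : 𝕄) := by
    apply sp.Φ_inj
    rw [map_mul, map_mul, sp.Φ_bd, sp.P_z, fromBlocks_multiply, fromBlocks_multiply]
    simp [hCk]
  obtain ⟨w', c, e⟩ := S.proj_of_small h2 hsm hk0 (sp.five.q_z k) hC hgk (w := sp.z i + sp.z j)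
    (by rw [map_add, sp.five.B_z k i hik.symm, sp.five.B_z k j hjk.symm]; decide)
  obtain ⟨κ, hκ0, hκ⟩ := S.P_add_coeff (sp.z i) (sp.z j)
  have hQ : (1 : M₄) + sp.Γ k ≠ 0 := by
    intro h
    have h' := sp.anti.anti k i hik.symm
    rw [eq_neg_of_add_eq_zero_right h] at h'
    simp at h'
    have h'' := neg_eq_zero_of h2 h'.symm
    exact (Units.ne_zero (sp.gam i)) h''
  have hne : sp.Γ i * sp.Γ j * (1 + sp.Γ k) ≠ 0 := by
    rw [← sp.coe_gam i, ← sp.coe_gam j, ← Units.val_mul]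
    exact fun h => hQ ((Units.mul_right_eq_zero _).1 h)
  have hcomm : S.B a w' = 0 := by
    by_contra hne'
    have hw1 : S.B a w' = 1 := by revert hne'; generalize S.B a w' = x; revert x; decide
    set X := sp.Φ (S.P w') with hX
    have hanti : fromBlocks 1 0 0 (-1) * X = -(X * fromBlocks 1 0 0 (-1)) := by
      rw [hX, ← sp.P_a, ← map_mul, ← map_mul, ← map_neg, S.anti_of_B hw1]
    rw [← fromBlocks_toBlocks X, fromBlocks_multiply, fromBlocks_multiply, fromBlocks_neg] at hanti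
    have h11 : X.toBlocks₁₁ = 0 := neg_eq_zero_of h2 (by simpa using (fromBlocks_inj.1 hanti).1)
    have e' := congrArg sp.Φ e
    rw [map_mul, map_mul, map_smul, map_mul, map_mul, hκ, map_smul, map_mul, map_add, map_one,
      sp.P_z, sp.P_z, sp.P_z, sp.Φ_bd, ← hX, ← fromBlocks_toBlocks X, h11, ← fromBlocks_one,
      fromBlocks_add] at e'
    simp only [fromBlocks_multiply, fromBlocks_smul, fromBlocks_inj] at e'
    have e1 := e'.1
    simp only [Units.val_one, one_mul, mul_zero, zero_mul, add_zero, zero_add, smul_zero,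
      smul_mul_assoc] at e1
    exact hne ((smul_eq_zero.1 e1).resolve_left hκ0)
  obtain ⟨Y, s, hs, hY⟩ := sp.exists_diag hcomm
  have e' := congrArg sp.Φ e
  rw [map_mul, map_mul, map_smul, map_mul, map_mul, hκ, map_smul, map_mul, map_add, map_one,
    sp.P_z, sp.P_z, sp.P_z, sp.Φ_bd, hY, ← fromBlocks_one, fromBlocks_add] at e'
  simp only [fromBlocks_multiply, fromBlocks_smul, fromBlocks_inj] at e'
  obtain ⟨e1, -, -, e4⟩ := e'
  simp only [Units.val_one, one_mul, mul_zero, zero_mul, add_zero, zero_add, smul_zero,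
    smul_mul_assoc, mul_smul_comm] at e1 e4
  obtain ⟨σi, hσi, ei⟩ := hf i
  obtain ⟨σj, hσj, ej⟩ := hf j
  have hCQ : (C : M₄) * (1 + sp.Γ k) = (1 + sp.Γ k) * (C : M₄) := by
    rw [mul_add, add_mul, mul_one, one_mul, hCk]
  have hl : (C : M₄) * (sp.Γ i * sp.Γ j) * (1 + sp.Γ k) =
      (σi * σj) • (sp.Γ (f i) * sp.Γ (f j) * (1 + sp.Γ k) * (C : M₄)) := by
    rw [← mul_assoc (C : M₄), ei, smul_mul_assoc, mul_assoc (sp.Γ (f i)), ej, mul_smul_comm,
      smul_smul, smul_mul_assoc, ← mul_assoc (sp.Γ (f i)), mul_assoc _ (C : M₄), hCQ, ← mul_assoc]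
  have hr : c • (s • (Y * ((C : M₄) * (1 + sp.Γ k)))) =
      (s * κ) • (sp.Γ i * sp.Γ j * (1 + sp.Γ k) * (C : M₄)) := by
    rw [hCQ, ← mul_assoc, smul_comm c s, ← smul_mul_assoc, ← smul_smul, ← smul_mul_assoc]
    rw [← e1, smul_mul_assoc, smul_mul_assoc]
  rw [hl, hr, smul_smul, ← smul_mul_assoc (κ * (σi * σj)) (sp.Γ (f i) * sp.Γ (f j) * (1 + sp.Γ k)),
    ← smul_mul_assoc (s * κ), Units.mul_left_inj] at e4
  refine ⟨σi * σj * s, ?_, ?_⟩
  · rcases hσi with rfl | rfl <;> rcases hσj with rfl | rfl <;> rcases hs with rfl | rfl <;> simp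
  · have hσ2 : (σi * σj) * (σi * σj) = 1 := by
      rcases hσi with rfl | rfl <;> rcases hσj with rfl | rfl <;> simp
    have e5 := congrArg ((σi * σj * κ⁻¹) • ·) e4
    simp only [smul_smul] at e5
    rw [show σi * σj * κ⁻¹ * (κ * (σi * σj)) = 1 by field_simp; linear_combination hσ2, one_smul,
      show σi * σj * κ⁻¹ * (s * κ) = σi * σj * s by field_simp] at e5
    exact e5

/-- Two pairs meeting in one point give different products. -/
theorem not_prop (h2 : (2 : F) ≠ 0) {x y y' k : Fin 5} (hy : y ≠ y') (hxk : x ≠ k) {t : F}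
    (ht : t = 1 ∨ t = -1)
    (h : sp.Γ x * sp.Γ y * (1 + sp.Γ k) = t • (sp.Γ x * sp.Γ y' * (1 + sp.Γ k))) : False := by
  rw [mul_assoc, mul_assoc, ← mul_smul_comm, ← sp.coe_gam x, Units.mul_right_inj] at h
  have hd : (sp.Γ y - t • sp.Γ y') * (1 + sp.Γ k) = 0 := by
    rw [sub_mul, h, smul_mul_assoc, sub_self]
  have hsq : (sp.Γ y - t • sp.Γ y') * (sp.Γ y - t • sp.Γ y') = (2 : F) • (1 : M₄) := by
    rcases ht with rfl | rfl
    · rw [one_smul]; exact sp.anti.sub_sq hy
    · rw [neg_one_smul, sub_neg_eq_add, add_mul, mul_add, mul_add, sp.anti.sq, sp.anti.sq,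
        sp.anti.anti y y' hy, two_smul]
      abel
  have h0 := congrArg ((sp.Γ y - t • sp.Γ y') * ·) hd
  simp only [← mul_assoc, hsq, mul_zero, smul_mul_assoc, one_mul, smul_eq_zero] at h0
  have hQ := h0.resolve_left h2
  have h' := sp.anti.anti k x hxk.symm
  rw [eq_neg_of_add_eq_zero_right hQ] at h'
  simp at h'
  exact (Units.ne_zero (sp.gam x)) (neg_eq_zero_of h2 h'.symm)

/-- A permutation realised on one block has no bad fixed point. -/
theorem not_bad (h2 : (2 : F) ≠ 0) {M : Subgroup (GL I8 F)} (hNM : S.N ≤ M) (hsm : AllSmall S M)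
    {C : GL I4 F} (hC : sp.bd (1, C) ∈ M) {f : Equiv.Perm (Fin 5)} (hf : sp.Realises C f) :
    ¬ BadPerm f := by
  rintro ⟨k, i, j, hij, hik, hjk, hfk, hcase⟩
  obtain ⟨σ, hσ, hσk⟩ := hf k
  rw [hfk] at hσk
  obtain ⟨C', hC', hf', hC'k⟩ : ∃ C', sp.bd (1, C') ∈ M ∧ sp.Realises C' f ∧
      (C' : M₄) * sp.Γ k = sp.Γ k * (C' : M₄) := by
    rcases hσ with rfl | rfl
    · exact ⟨C, hC, hf, by rw [hσk, one_smul]⟩
    · refine ⟨sp.gam i * C, ?_, ?_, ?_⟩
      · have := mul_mem (hNM (sp.bd_one_gam_mem_N i)) hC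
        rwa [← map_mul, Prod.mk_mul_mk, one_mul] at this
      · have := sp.realises_mul (sp.gam_realises i) hf
        rwa [one_mul] at this
      · rw [Units.val_mul, coe_gam, mul_assoc, hσk, mul_smul_comm, ← mul_assoc,
          sp.anti.anti i k hik, neg_one_smul, neg_mul, neg_neg, mul_assoc]
  obtain ⟨t, ht, e⟩ := sp.pair_moves h2 hsm hC' hf' hij hik hjk hC'k
  rcases hcase with ⟨hfi, hfj⟩ | ⟨hfi, hfj⟩
  · rw [hfi] at e
    exact sp.not_prop h2 hfj hik ht e
  · rw [hfi, show sp.Γ i * sp.Γ j = -(sp.Γ j * sp.Γ i) from sp.anti.anti i j hij, neg_mul, smul_neg,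
      ← neg_smul] at e
    refine sp.not_prop h2 hfj hjk ?_ e
    rcases ht with rfl | rfl <;> simp

/-- A permutation realised on one block is trivial. -/
theorem realises_one (h2 : (2 : F) ≠ 0) {M : Subgroup (GL I8 F)} (hNM : S.N ≤ M)
    (hsm : AllSmall S M) {C : GL I4 F} (hC : sp.bd (1, C) ∈ M) {f : Equiv.Perm (Fin 5)}
    (hf : sp.Realises C f) : f = 1 := by
  rcases eq_one_or_bad f with h | h | ⟨t, ht, h⟩
  · exact h
  · exact absurd h (sp.not_bad h2 hNM hsm hC hf)
  · exfalso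
    obtain ⟨D, hDN, hD⟩ := sp.exists_dswap h2 (quads_ne t ht).1 (quads_ne t ht).2
    obtain ⟨D', hD'N, hD'⟩ := sp.exists_dswap h2 (quads_ne t ht).1 (quads_ne t ht).2
    have hdd : dswap t * dswap t = 1 := by
      have : ∀ t ∈ quads, dswap t * dswap t = 1 := by decide +kernel
      exact this t ht
    refine sp.not_bad h2 hNM hsm (C := C * D * C⁻¹ * D⁻¹) ?_ ?_ h
    · have := mul_mem (mul_mem (mul_mem hC (hNM hDN)) (inv_mem hC)) (inv_mem (hNM hDN))
      rw [← map_inv, ← map_inv, ← map_mul, ← map_mul, ← map_mul] at this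
      simpa using this
    · have h1 := sp.realises_mul (sp.realises_mul (sp.realises_mul hf hD) (sp.realises_inv hf))
        (sp.realises_inv hD)
      rwa [show (Equiv.swap t.1 t.2.1 * Equiv.swap t.2.2.1 t.2.2.2)⁻¹ = dswap t from
        inv_eq_of_mul_eq_one_right hdd] at h1

theorem sum_z : sp.z 4 = sp.z 0 + sp.z 1 + sp.z 2 + sp.z 3 := by
  rw [← add_eq_zero_iff']
  refine S.nondeg _ fun w => ?_
  have hw : w ∈ Submodule.span (ZMod 2) ({a, u} ∪ Set.range sp.z) := sp.span_eq ▸ Submodule.mem_top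
  induction hw using Submodule.span_induction with
  | mem x hx =>
    have h11 : (1 : ZMod 2) + 1 = 0 := by decide
    rcases hx with (rfl | rfl) | ⟨i, rfl⟩
    · simp [S.sk _ x, sp.five.B_a]
    · simp [S.sk _ x, sp.five.B_u]
    · fin_cases i <;> simp [sp.five.B_z, S.B_self, h11]
  | zero => simp
  | add x y _ _ hx hy => rw [map_add, hx, hy, add_zero]
  | smul c x _ hx => rw [map_smul, hx, smul_zero]

/-- The small case: the centraliser of `P a` in `M` normalises the system. -/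
theorem mem_N_of_small (sp : Split S a u) (h2 : (2 : F) ≠ 0) {M : Subgroup (GL I8 F)} (hNM : S.N ≤ M)
    (hM : M ≤ Cfsg.spGL 4 F) (hsm : AllSmall S M) {g : GL I8 F} (hg : g ∈ M)
    (hgc : (g : 𝕄) * S.P a = S.P a * (g : 𝕄)) : g ∈ S.N := by
  obtain ⟨A, B, rfl⟩ := sp.exists_bd h2 hgc
  obtain ⟨hAs, -⟩ := sp.bd_mem_sp.1 (hM hg)
  have hAA : sp.bd (A, A) ∈ S.N := sp.bd_diag_mem_N hAs fun i => by
    obtain ⟨j, σ, -, h⟩ := hsm a u sp A (sp.mem_projGroup hg) i
    exact ⟨j, σ, h⟩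
  suffices h : sp.bd (1, A⁻¹ * B) ∈ S.N by
    have := mul_mem hAA h
    rwa [← map_mul, Prod.mk_mul_mk, mul_one, mul_inv_cancel_left] at this
  have hCM : sp.bd (1, A⁻¹ * B) ∈ M := by
    have := mul_mem (inv_mem (hNM hAA)) hg
    rwa [← map_inv, ← map_mul, Prod.inv_mk, Prod.mk_mul_mk, inv_mul_cancel] at this
  generalize A⁻¹ * B = C at hCM ⊢
  obtain ⟨f, hf⟩ := sp.exists_realises h2 (hsm a u sp) (sp.mem_projGroup₂ hNM hCM)
  obtain rfl := sp.realises_one h2 hNM hsm hCM hf
  -- fix the signs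
  have key : ∀ n : ℕ, n ≤ 4 → ∃ G : GL I4 F, sp.bd (1, G) ∈ S.N ∧ sp.Realises (G * C) 1 ∧
      ∀ x : Fin 5, x.val < n → ((G * C : GL I4 F) : M₄) * sp.Γ x = sp.Γ x * ((G * C : GL I4 F) : M₄) := by
    intro n
    induction n with
    | zero =>
      refine fun _ => ⟨1, ?_, by rwa [one_mul], fun x hx => absurd hx (Nat.not_lt_zero _)⟩
      rw [← Prod.one_eq_mk, map_one]
      exact one_mem _
    | succ n ih =>
      intro hn
      obtain ⟨G, hG, hGr, hGx⟩ := ih (by omega)
      let m : Fin 5 := ⟨n, by omega⟩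
      obtain ⟨σ, hσ, hσm⟩ := hGr m
      rw [Equiv.Perm.one_apply] at hσm
      rcases hσ with rfl | rfl
      · refine ⟨G, hG, hGr, fun x hx => ?_⟩
        by_cases hxm : x = m
        · rw [hxm, hσm, one_smul]
        · exact hGx x (by
            rcases Nat.lt_succ_iff_lt_or_eq.1 hx with h | h
            · exact h
            · exact absurd (Fin.ext h) hxm)
      · refine ⟨sp.gam m * sp.gam 4 * G, ?_, ?_, fun x hx => ?_⟩
        · have := mul_mem (mul_mem (sp.bd_one_gam_mem_N m) (sp.bd_one_gam_mem_N 4)) hG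
          rwa [← map_mul, ← map_mul, Prod.mk_mul_mk, Prod.mk_mul_mk, one_mul, one_mul] at this
        · have := sp.realises_mul (sp.realises_mul (sp.gam_realises m) (sp.gam_realises 4)) hGr
          rwa [one_mul, one_mul, ← mul_assoc] at this
        · have hx4 : (4 : Fin 5) ≠ x := fun h => by
            rw [← h] at hx
            simp at hx
            omega
          rw [mul_assoc (sp.gam m * sp.gam 4)]
          set H := G * C with hH
          simp only [Units.val_mul, coe_gam]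
          by_cases hxm : x = m
          · subst hxm
            rw [mul_assoc _ (H : M₄), hσm, neg_one_smul, mul_neg, ← mul_assoc,
              mul_assoc (sp.Γ m), sp.anti.anti 4 m hx4, mul_neg, ← mul_assoc, neg_mul, neg_neg]
            simp only [mul_assoc]
          · rw [mul_assoc _ (H : M₄), hGx x (by
              rcases Nat.lt_succ_iff_lt_or_eq.1 hx with h | h
              · exact h
              · exact absurd (Fin.ext h) hxm), ← mul_assoc, mul_assoc (sp.Γ m),
              sp.anti.anti 4 x hx4, mul_neg, ← mul_assoc, sp.anti.anti m x (fun h => hxm h.symm)]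
            simp only [mul_assoc, neg_mul, mul_neg, neg_neg]
  obtain ⟨G, hG, -, hGx⟩ := key 4 le_rfl
  set H := G * C with hH
  have hHM : sp.bd (1, H) ∈ M := by
    have := mul_mem (hNM hG) hCM
    rwa [← map_mul, Prod.mk_mul_mk, one_mul] at this
  have hCe : sp.bd (1, C) = (sp.bd (1, G))⁻¹ * sp.bd (1, H) := by
    rw [← map_inv, ← map_mul, Prod.inv_mk, Prod.mk_mul_mk, hH, inv_mul_cancel_left, inv_one,
      one_mul]
  rw [hCe]
  refine mul_mem (inv_mem hG) ?_
  obtain ⟨c, hc⟩ := S.eq_scalar_of_commute (s := {a, u, sp.z 0, sp.z 1, sp.z 2, sp.z 3}) (by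
      refine eq_top_iff.2 (sp.span_eq ▸ Submodule.span_le.2 ?_)
      have hm : ∀ x ∈ ({a, u, sp.z 0, sp.z 1, sp.z 2, sp.z 3} : Set V6),
          x ∈ Submodule.span (ZMod 2) ({a, u, sp.z 0, sp.z 1, sp.z 2, sp.z 3} : Set V6) :=
        fun x hx => Submodule.subset_span hx
      rintro x ((rfl | rfl) | ⟨i, rfl⟩)
      · exact hm _ (by simp)
      · exact hm _ (by simp)
      · fin_cases i
        · exact hm _ (by simp)
        · exact hm _ (by simp)
        · exact hm _ (by simp)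
        · exact hm _ (by simp)
        · show sp.z 4 ∈ _
          rw [sp.sum_z]
          exact add_mem (add_mem (add_mem (hm _ (by simp)) (hm _ (by simp))) (hm _ (by simp)))
            (hm _ (by simp)))
    (X := ((sp.bd (H, H) : GL I8 F) : 𝕄)) (by
      intro v hv
      simp only [Set.mem_insert_iff, Set.mem_singleton_iff] at hv
      apply sp.Φ_inj
      rw [map_mul, map_mul, sp.Φ_bd]
      rcases hv with rfl | rfl | rfl | rfl | rfl | rfl
      · rw [sp.P_a, fromBlocks_multiply, fromBlocks_multiply]; simp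
      · rw [sp.P_u, fromBlocks_multiply, fromBlocks_multiply]; simp
      all_goals
        rw [sp.P_z, fromBlocks_multiply, fromBlocks_multiply]
        simp [hGx 0 (by decide), hGx 1 (by decide), hGx 2 (by decide), hGx 3 (by decide)])
  have hHs : H ∈ Cfsg.spGL 2 F := (sp.bd_mem_sp.1 (hM hHM)).2
  have hcc : c * c = 1 := coeff_sq (g := sp.bd (H, H)) (h := 1) (sp.bd_mem_sp.2 ⟨hHs, hHs⟩)
    (one_mem _) (by rw [Units.val_one]; exact hc)
  have hcH := congrArg sp.Φ hc
  rw [sp.Φ_bd, map_smul, map_one, ← fromBlocks_one, fromBlocks_smul] at hcH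
  have hcH' : (H : M₄) = c • (1 : M₄) := (fromBlocks_inj.1 hcH).1
  rcases mul_self_eq_one_iff.1 hcc with rfl | rfl
  · have hH1 : H = 1 := Units.ext (by rw [hcH', one_smul, Units.val_one])
    rw [hH1]
    rw [← Prod.one_eq_mk, map_one]
    exact one_mem _
  · have e : sp.bd (1, H) = S.gl a := Units.ext (sp.Φ_inj (by
      rw [sp.Φ_bd, hcH', Sys.coe_gl, sp.P_a, neg_one_smul, Units.val_one]))
    rw [e]
    exact S.gl_mem_N a

end Split

/-- The centraliser of an involution with singular label, up to sign, normalises the system. -/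
theorem Sys.local_of_small (S : Sys F) (h2 : (2 : F) ≠ 0) {M : Subgroup (GL I8 F)}
    (hNM : S.N ≤ M) (hM : M ≤ Cfsg.spGL 4 F) (hsm : AllSmall S M) {a : V6} (ha : a ≠ 0)
    (hqa : S.q a = 0) {g : GL I8 F} (hg : g ∈ M) {c : F}
    (hc : (g : 𝕄) * S.P a = c • (S.P a * (g : 𝕄))) : g ∈ S.N := by
  obtain ⟨u, hqu, hau⟩ := S.exists_singular_pair ha hqa
  obtain ⟨sp⟩ := Split.exists_split S h2 hqa hqu hau
  rcases mul_self_eq_one_iff.1 (S.coeff_label (hM hg) hc) with rfl | rfl
  · exact sp.mem_N_of_small h2 hNM hM hsm hg (by rw [hc, one_smul])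
  · refine (S.N.mul_mem_cancel_right (S.gl_mem_N u)).1
      (sp.mem_N_of_small h2 hNM hM hsm (mul_mem hg (hNM (S.gl_mem_N u))) ?_)
    rw [Units.val_mul, coe_gl, mul_assoc, S.anti_of_B ((S.sk u a).trans hau), mul_neg, ← mul_assoc,
      hc, neg_one_smul, neg_mul, neg_neg, mul_assoc]

end CfsgLib.Geometric.PauliMinus
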