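import Cfsg.Agent.Lib.Geometric.PauliMinus.Five
import Cfsg.Agent.Lib.Geometric.SympFour.Rigid

/-!
Coordinates adapted to an anticommuting pair of involutions of a system of minus type.
-/

set_option autoImplicit false
set_option linter.unusedSectionVars false

namespace CfsgLib.Geometric.PauliMinus

open Matrix
open CfsgLib.Geometric.PauliMax (V6)
open CfsgLib.PauliFour (Anti adj)

/-- The index type of four-dimensional space. -/
abbrev I4 := Fin 2 ⊕ Fin 2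

variable {F : Type*} [Field F]

local notation "𝕄" => Matrix I8 I8 F
local notation "M₄" => Matrix I4 I4 F

/-- Coordinates in which `P a` is `diag (1, -1)`, `P u` exchanges the blocks, the five elements
orthogonal to both act diagonally, and the isometric block diagonal matrices are the pairs of
isometries of `sympForm 2`. -/
structure Split (S : Sys F) (a u : V6) where
  Φ : 𝕄 ≃ₐ[F] Matrix (I4 ⊕ I4) (I4 ⊕ I4) F
  z : Fin 5 → V6
  Γ : Fin 5 → M₄
  five : IsFive S a u z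
  anti : Anti Γ
  adj_eq : ∀ i, adj (Γ i) = Γ i
  P_a : Φ (S.P a) = fromBlocks 1 0 0 (-1)
  P_u : Φ (S.P u) = fromBlocks 0 1 1 0
  P_z : ∀ i, Φ (S.P (z i)) = fromBlocks (Γ i) 0 0 (Γ i)
  mem_sp : ∀ (g : GL I8 F) (A B : GL I4 F),
    Φ (g : 𝕄) = fromBlocks (A : M₄) 0 0 (B : M₄) →
      (g ∈ Cfsg.spGL 4 F ↔ A ∈ Cfsg.spGL 2 F ∧ B ∈ Cfsg.spGL 2 F)

namespace Split

variable {S : Sys F} {a u : V6} (sp : Split S a u)

theorem Φ_inj {X Y : 𝕄} (h : sp.Φ X = sp.Φ Y) : X = Y := sp.Φ.injective h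

/-- Block diagonal elements. -/
def bd : GL I4 F × GL I4 F →* GL I8 F where
  toFun p :=
    { val := sp.Φ.symm (fromBlocks (p.1 : M₄) 0 0 (p.2 : M₄))
      inv := sp.Φ.symm (fromBlocks ((p.1⁻¹ : GL I4 F) : M₄) 0 0 ((p.2⁻¹ : GL I4 F) : M₄))
      val_inv := by
        rw [← map_mul, fromBlocks_multiply]
        simp
      inv_val := by
        rw [← map_mul, fromBlocks_multiply]
        simp }
  map_one' := by ext : 1; simp
  map_mul' p q := by
    ext : 1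
    show sp.Φ.symm _ = sp.Φ.symm _ * sp.Φ.symm _
    rw [← map_mul, fromBlocks_multiply]
    simp

theorem Φ_bd (A B : GL I4 F) :
    sp.Φ ((sp.bd (A, B) : GL I8 F) : 𝕄) = fromBlocks (A : M₄) 0 0 (B : M₄) :=
  sp.Φ.apply_symm_apply _

theorem bd_mem_sp {A B : GL I4 F} :
    sp.bd (A, B) ∈ Cfsg.spGL 4 F ↔ A ∈ Cfsg.spGL 2 F ∧ B ∈ Cfsg.spGL 2 F :=
  sp.mem_sp _ A B (sp.Φ_bd A B)

theorem exists_bd (h2 : (2 : F) ≠ 0) {g : GL I8 F}
    (hg : (g : 𝕄) * S.P a = S.P a * (g : 𝕄)) : ∃ A B : GL I4 F, sp.bd (A, B) = g := by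
  have key : ∀ h : GL I8 F, (h : 𝕄) * S.P a = S.P a * (h : 𝕄) →
      sp.Φ (h : 𝕄) =
        fromBlocks (sp.Φ (h : 𝕄)).toBlocks₁₁ 0 0 (sp.Φ (h : 𝕄)).toBlocks₂₂ := by
    intro h hh
    have e := congrArg sp.Φ hh
    rw [map_mul, map_mul, sp.P_a] at e
    set X := sp.Φ (h : 𝕄)
    rw [← fromBlocks_toBlocks X, fromBlocks_multiply, fromBlocks_multiply] at e
    simp only [mul_one, mul_zero, zero_mul, one_mul, add_zero, zero_add, fromBlocks_inj, mul_neg,
      neg_mul] at e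
    obtain ⟨-, e12, e21, -⟩ := e
    have z : ∀ Y : M₄, -Y = Y → Y = 0 := fun Y hY => by
      have : (2 : F) • Y = 0 := by rw [two_smul]; nth_rewrite 1 [← hY]; rw [neg_add_cancel]
      exact (smul_eq_zero.1 this).resolve_left h2
    conv_lhs => rw [← fromBlocks_toBlocks X]
    rw [z _ e12, z _ e21.symm]
  have hgi : ((g⁻¹ : GL I8 F) : 𝕄) * S.P a = S.P a * ((g⁻¹ : GL I8 F) : 𝕄) :=
    Commute.units_inv_left (show Commute ((g : GL I8 F) : 𝕄) (S.P a) from hg)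
  have e1 : sp.Φ (g : 𝕄) * sp.Φ ((g⁻¹ : GL I8 F) : 𝕄) = 1 := by
    rw [← map_mul, Units.mul_inv, map_one]
  have e2 : sp.Φ ((g⁻¹ : GL I8 F) : 𝕄) * sp.Φ (g : 𝕄) = 1 := by
    rw [← map_mul, Units.inv_mul, map_one]
  rw [key g hg, key g⁻¹ hgi, fromBlocks_multiply, ← fromBlocks_one] at e1 e2
  simp only [mul_zero, zero_mul, add_zero, zero_add, fromBlocks_inj] at e1 e2
  refine ⟨⟨_, _, e1.1, e2.1⟩, ⟨_, _, e1.2.2.2, e2.2.2.2⟩, ?_⟩
  exact Units.ext (sp.Φ_inj (by rw [sp.Φ_bd]; exact (key g hg).symm))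

/-- The first blocks of the elements of `M` commuting with `P a`. -/
def projGroup (M : Subgroup (GL I8 F)) : Subgroup (GL I4 F) :=
  (M.comap sp.bd).map (MonoidHom.fst _ _)

/-- The second blocks of the elements of `M` with trivial first block. -/
def kerGroup (M : Subgroup (GL I8 F)) : Subgroup (GL I4 F) :=
  M.comap (sp.bd.comp (MonoidHom.inr _ _))

theorem mem_kerGroup {M : Subgroup (GL I8 F)} {C : GL I4 F} :
    C ∈ sp.kerGroup M ↔ sp.bd (1, C) ∈ M := Iff.rfl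

/-- All first blocks permute the five involutions up to sign. -/
def Small (M : Subgroup (GL I8 F)) : Prop :=
  ∀ A ∈ sp.projGroup M, ∀ i, ∃ (j : Fin 5) (σ : F), (σ = 1 ∨ σ = -1) ∧
    (A : M₄) * sp.Γ i = σ • (sp.Γ j * (A : M₄))

theorem span_eq : Submodule.span (ZMod 2) ({a, u} ∪ Set.range sp.z) = ⊤ := sp.five.span

theorem bd_swap (A B : GL I4 F) : sp.bd (B, A) = S.gl u * sp.bd (A, B) * S.gl u := by
  refine Units.ext (sp.Φ_inj ?_)
  rw [Units.val_mul, Units.val_mul, map_mul, map_mul, sp.Φ_bd, sp.Φ_bd, Sys.coe_gl, sp.P_u,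
    fromBlocks_multiply, fromBlocks_multiply]
  simp

theorem bd_swap_mem {M : Subgroup (GL I8 F)} (hNM : S.N ≤ M) {A B : GL I4 F}
    (h : sp.bd (A, B) ∈ M) : sp.bd (B, A) ∈ M := by
  rw [sp.bd_swap]
  exact mul_mem (mul_mem (hNM (S.gl_mem_N u)) h) (hNM (S.gl_mem_N u))

theorem mem_projGroup {M : Subgroup (GL I8 F)} {A B : GL I4 F} (h : sp.bd (A, B) ∈ M) :
    A ∈ sp.projGroup M :=
  ⟨(A, B), h, rfl⟩

theorem mem_projGroup₂ {M : Subgroup (GL I8 F)} (hNM : S.N ≤ M) {A B : GL I4 F}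
    (h : sp.bd (A, B) ∈ M) : B ∈ sp.projGroup M :=
  sp.mem_projGroup (sp.bd_swap_mem hNM h)

end Split

end CfsgLib.Geometric.PauliMinus
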